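import Mathlib

/-!
# Half-transitive groups of automorphisms that are not semiregular

If a group of automorphisms of a finite group has all orbits of non-identity elements of the same
size and is not semiregular, the group is elementary abelian and the automorphisms are irreducible.
-/

set_option autoImplicit false

namespace Cfsg.Agent.Recog.HalfTrans

open scoped commutatorElement
set_option linter.style.haveILetI false

variable {H N : Type*} [Group H] [Finite H] [Group N] [Finite N] [MulDistribMulAction H N]

/-- All orbits of non-identity elements have `k` elements. -/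
def IsHalf (H N : Type*) [Group H] [Group N] [MulDistribMulAction H N] (k : ℕ) : Prop :=
  ∀ n : N, n ≠ 1 → Nat.card (MulAction.orbit H n) = k

variable {k : ℕ} (hk : IsHalf H N k)

include hk

omit [Finite N] in
theorem card_stab {n : N} (hn : n ≠ 1) :
    k * Nat.card (MulAction.stabilizer H n) = Nat.card H := by
  rw [← hk n hn, mul_comm, ← (MulAction.stabilizer H n).card_mul_index,
    MulAction.index_stabilizer, Nat.card_coe_set_eq]

omit [Finite N] in
theorem stab_eq_of_le {n m : N} (hn : n ≠ 1) (hm : m ≠ 1)
    (h : MulAction.stabilizer H n ≤ MulAction.stabilizer H m) :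
    MulAction.stabilizer H n = MulAction.stabilizer H m := by
  have h1 := card_stab hk hn
  have h2 := card_stab hk hm
  have hk0 : 0 < k := by
    rcases Nat.eq_zero_or_pos k with rfl | h0
    · rw [zero_mul] at h1; exact absurd h1.symm Nat.card_pos.ne'
    · exact h0
  exact Subgroup.eq_of_le_of_card_ge h (Nat.eq_of_mul_eq_mul_left hk0 (h2.trans h1.symm)).le

/-- A set invariant under a subgroup containing the stabilisers of its elements, of size prime
to `k`: the subgroup fixes it. -/
theorem stab_eq_of_coprime {L : Subgroup H} {S : Set N} (hS1 : (1 : N) ∉ S)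
    (hinv : ∀ l ∈ L, ∀ y ∈ S, l • y ∈ S) (hle : ∀ y ∈ S, MulAction.stabilizer H y ≤ L)
    (hcop : Nat.Coprime k (Nat.card S)) : ∀ y ∈ S, MulAction.stabilizer H y = L := by
  classical
  intro y hy
  have hne : ∀ z ∈ S, z ≠ 1 := fun z hz h => hS1 (h ▸ hz)
  set d := (MulAction.stabilizer H y).relIndex L with hd
  let act : MulAction L S :=
    { smul := fun l z => ⟨(l : H) • (z : N), hinv l l.2 z z.2⟩
      one_smul := fun z => Subtype.ext (one_smul H (z : N))
      mul_smul := fun a b z => Subtype.ext (SemigroupAction.mul_smul (a : H) (b : H) (z : N)) }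
  have horb : ∀ z : S, Nat.card (MulAction.orbit L z) = d := by
    intro z
    rw [Nat.card_coe_set_eq, ← MulAction.index_stabilizer]
    have hst : MulAction.stabilizer L z = (MulAction.stabilizer H (z : N)).subgroupOf L := by
      ext l
      rw [MulAction.mem_stabilizer_iff, Subgroup.mem_subgroupOf, MulAction.mem_stabilizer_iff]
      exact ⟨fun h => congrArg Subtype.val h, fun h => Subtype.ext h⟩
    rw [hst]
    have h1 := card_stab hk (hne z z.2)
    have h2 := card_stab hk (hne y hy)
    have h3 := Subgroup.card_mul_index ((MulAction.stabilizer H (z : N)).subgroupOf L)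
    have h4 := Subgroup.card_mul_index ((MulAction.stabilizer H y).subgroupOf L)
    rw [Nat.card_congr (Subgroup.subgroupOfEquivOfLe (hle z z.2)).toEquiv] at h3
    rw [Nat.card_congr (Subgroup.subgroupOfEquivOfLe (hle y hy)).toEquiv] at h4
    have hk0 : 0 < k := by
      rcases Nat.eq_zero_or_pos k with rfl | h0
      · rw [zero_mul] at h1; exact absurd h1.symm Nat.card_pos.ne'
      · exact h0
    have heq := Nat.eq_of_mul_eq_mul_left hk0 (h1.trans h2.symm)
    rw [heq] at h3
    exact Nat.eq_of_mul_eq_mul_left Nat.card_pos (h3.trans h4.symm)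
  have hdS : d ∣ Nat.card S := by
    have : Fintype (MulAction.orbitRel.Quotient L S) := Fintype.ofFinite _
    rw [Nat.card_congr (MulAction.selfEquivSigmaOrbits L S), Nat.card_sigma]
    refine Finset.dvd_sum fun ω _ => ?_
    rw [horb]
  have hdk : d ∣ k := by
    rw [← hk y (hne y hy), Nat.card_coe_set_eq, ← MulAction.index_stabilizer]
    exact Subgroup.relIndex_dvd_index_of_le (hle y hy)
  exact le_antisymm (hle y hy) (Subgroup.relIndex_eq_one.mp (Nat.eq_one_of_dvd_coprimes hcop hdk hdS))

/-- The number of elements of an invariant set of non-identity elements is divisible by `k`. -/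
theorem dvd_card {S : Set N} (hS1 : (1 : N) ∉ S) (hinv : ∀ h : H, ∀ y ∈ S, h • y ∈ S) :
    k ∣ Nat.card S := by
  classical
  let act : MulAction H S :=
    { smul := fun l z => ⟨l • (z : N), hinv l z z.2⟩
      one_smul := fun z => Subtype.ext (one_smul H (z : N))
      mul_smul := fun a b z => Subtype.ext (SemigroupAction.mul_smul a b (z : N)) }
  have : Fintype (MulAction.orbitRel.Quotient H S) := Fintype.ofFinite _
  rw [Nat.card_congr (MulAction.selfEquivSigmaOrbits H S), Nat.card_sigma]
  refine Finset.dvd_sum fun ω _ => ?_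
  set z : S := Quotient.out ω
  have hst : MulAction.stabilizer H z = MulAction.stabilizer H (z : N) := by
    ext l
    rw [MulAction.mem_stabilizer_iff, MulAction.mem_stabilizer_iff]
    exact ⟨fun h => congrArg Subtype.val h, fun h => Subtype.ext h⟩
  rw [Nat.card_coe_set_eq, ← MulAction.index_stabilizer, hst, MulAction.index_stabilizer,
    ← Nat.card_coe_set_eq, hk _ (fun h => hS1 (h ▸ z.2))]

/-- Coprimality with the order of an invariant subgroup. -/
theorem coprime_card {M : Subgroup N} (hM : ∀ h : H, ∀ m ∈ M, h • m ∈ M) :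
    Nat.Coprime k (Nat.card M) := by
  classical
  have hS : Nat.card ({m | m ∈ M ∧ m ≠ 1} : Set N) + 1 = Nat.card M := by
    rw [Nat.card_coe_set_eq, ← SetLike.coe_sort_coe M, Nat.card_coe_set_eq]
    have : ({m | m ∈ M ∧ m ≠ 1} : Set N) = (M : Set N) \ {1} := by ext m; simp
    rw [this]
    exact Set.ncard_diff_singleton_add_one M.one_mem (Set.toFinite _)
  have hd : k ∣ Nat.card ({m | m ∈ M ∧ m ≠ 1} : Set N) :=
    dvd_card hk (fun h => h.2 rfl) (fun h y hy => ⟨hM h y hy.1,
      fun he => hy.2 (MulAction.injective h (he.trans (smul_one h).symm))⟩)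
  rw [← hS]
  exact Nat.Coprime.coprime_dvd_left hd (by rw [Nat.coprime_self_add_right]; exact Nat.coprime_one_right _)

variable (hfaith : ∀ h : H, (∀ n : N, h • n = n) → h = 1)
  (hex : ∃ n : N, n ≠ 1 ∧ MulAction.stabilizer H n ≠ ⊥)

include hfaith hex

omit [Finite N] in
theorem exists_stab_ne {n : N} (hn : n ≠ 1) :
    ∃ m : N, m ≠ 1 ∧ MulAction.stabilizer H m ≠ MulAction.stabilizer H n := by
  by_contra hcon
  push Not at hcon
  obtain ⟨n₀, hn₀, hne⟩ := hex
  apply hne
  rw [Subgroup.eq_bot_iff_forall]
  intro h hh
  refine hfaith h fun m => ?_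
  by_cases hm : m = 1
  · rw [hm, smul_one]
  · exact MulAction.mem_stabilizer_iff.mp
      (((hcon m hm).trans (hcon n₀ hn₀).symm).symm ▸ hh : h ∈ MulAction.stabilizer H m)

/-- Irreducibility. -/
theorem invariant_trivial {M : Subgroup N} (hM : ∀ h : H, ∀ m ∈ M, h • m ∈ M) :
    M = ⊥ ∨ M = ⊤ := by
  classical
  by_contra hcon
  rw [not_or] at hcon
  obtain ⟨x₀, -, hx₀⟩ := SetLike.exists_of_lt (lt_top_iff_ne_top.mpr hcon.2)
  obtain ⟨m₀, hm₀, hm₁⟩ := (Subgroup.bot_or_exists_ne_one M).resolve_left hcon.1
  -- stabilisers of elements outside `M` fix `M`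
  have key : ∀ x ∉ M, ∀ m ∈ M, MulAction.stabilizer H x ≤ MulAction.stabilizer H m := by
    intro x hx m hm
    let L : Subgroup H :=
      { carrier := {h | x⁻¹ * h • x ∈ M}
        one_mem' := by simp [one_mem]
        mul_mem' := fun {a b} ha hb => by
          show x⁻¹ * (a * b) • x ∈ M
          have := mul_mem (show x⁻¹ * a • x ∈ M from ha) (hM a _ (show x⁻¹ * b • x ∈ M from hb))
          rwa [smul_mul', smul_inv', mul_assoc, mul_inv_cancel_left, ← SemigroupAction.mul_smul] at this
        inv_mem' := fun {a} ha => by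
          show x⁻¹ * a⁻¹ • x ∈ M
          have := M.inv_mem (hM a⁻¹ _ (show x⁻¹ * a • x ∈ M from ha))
          rwa [smul_mul', smul_inv', ← SemigroupAction.mul_smul, inv_mul_cancel, one_smul, mul_inv_rev,
            inv_inv] at this }
    have hcop : Nat.Coprime k (Nat.card ({y | x⁻¹ * y ∈ M} : Set N)) := by
      have e : ({y | x⁻¹ * y ∈ M} : Set N) ≃ M :=
        { toFun := fun y => ⟨x⁻¹ * y.1, y.2⟩
          invFun := fun u => ⟨x * u.1, by simp⟩
          left_inv := fun y => Subtype.ext (by simp)
          right_inv := fun u => Subtype.ext (by simp) }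
      rw [Nat.card_congr e]
      exact coprime_card hk hM
    have hall := stab_eq_of_coprime hk (L := L) (S := {y | x⁻¹ * y ∈ M})
      (fun h => hx (by simpa using h))
      (fun l hl y hy => by
        have := M.mul_mem (show x⁻¹ * l • x ∈ M from hl) (hM l _ hy)
        rwa [smul_mul', smul_inv', mul_assoc, mul_inv_cancel_left] at this)
      (fun y hy h hh => by
        show x⁻¹ * h • x ∈ M
        rw [MulAction.mem_stabilizer_iff] at hh
        have h1 := hM h _ hy
        rw [smul_mul', smul_inv', hh] at h1
        have := M.mul_mem (show x⁻¹ * y ∈ M from hy) (M.inv_mem h1)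
        rwa [mul_inv_rev, inv_inv, mul_assoc, mul_inv_cancel_left] at this) hcop
    intro h hh
    have h1 : h • x = x := hh
    have h2 : h • (x * m) = x * m := by
      rw [← MulAction.mem_stabilizer_iff, hall (x * m) (by simpa using hm),
        ← hall x (by simp [one_mem])]
      exact hh
    rw [smul_mul', h1, mul_right_inj] at h2
    exact h2
  obtain ⟨m, hm, hne⟩ := exists_stab_ne hk hfaith hex hm₁
  have hx0 : x₀ ≠ 1 := fun h => hx₀ (h ▸ M.one_mem)
  have hall : ∀ x ∉ M, MulAction.stabilizer H x = MulAction.stabilizer H m₀ := fun x hx =>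
    stab_eq_of_le hk (fun h => hx (h ▸ M.one_mem)) hm₁ (key x hx m₀ hm₀)
  refine hne ?_
  by_cases hmM : m ∈ M
  · rw [← hall x₀ hx₀]
    exact (stab_eq_of_le hk hx0 hm (key x₀ hx₀ m hmM)).symm
  · exact hall m hmM

/-- Commutativity. -/
theorem isMulCommutative : IsMulCommutative N := by
  classical
  have hcopN : Nat.Coprime k (Nat.card N) := by
    have := coprime_card hk (M := ⊤) (fun _ _ _ => Subgroup.mem_top _)
    rwa [Subgroup.card_top] at this
  -- conjugates have equal stabilisers
  have hconj : ∀ x g : N, x ≠ 1 →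
      MulAction.stabilizer H (g * x * g⁻¹) = MulAction.stabilizer H x := by
    intro x g hx
    let S : Set N := MulAction.orbit (ConjAct N) x
    have hS : ∀ {y}, y ∈ S ↔ IsConj x y := fun {y} => by
      rw [isConj_comm]; exact ConjAct.mem_orbit_conjAct
    let L : Subgroup H :=
      { carrier := {h | IsConj x (h • x)}
        one_mem' := by show IsConj x ((1 : H) • x); rw [one_smul]
        mul_mem' := fun {a b} ha hb => by
          show IsConj x ((a * b) • x)
          rw [SemigroupAction.mul_smul]
          exact IsConj.trans ha ((MulDistribMulAction.toMonoidHom N a).map_isConj hb)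
        inv_mem' := fun {a} ha => by
          show IsConj x (a⁻¹ • x)
          have := (MulDistribMulAction.toMonoidHom N a⁻¹).map_isConj ha
          simp only [MulDistribMulAction.toMonoidHom_apply, inv_smul_smul] at this
          exact this.symm }
    have hall := stab_eq_of_coprime hk (L := L) (S := S)
      (fun h => hx (by rw [hS, isConj_one_left] at h; exact h) )
      (fun l hl y hy => hS.mpr ((show IsConj x (l • x) from hl).trans
        ((MulDistribMulAction.toMonoidHom N l).map_isConj (hS.mp hy))))
      (fun y hy h hh => by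
        show IsConj x (h • x)
        have h1 := (MulDistribMulAction.toMonoidHom N h).map_isConj (hS.mp hy)
        simp only [MulDistribMulAction.toMonoidHom_apply] at h1
        rw [MulAction.mem_stabilizer_iff.mp hh] at h1
        exact (hS.mp hy).trans h1.symm)
      (Nat.Coprime.coprime_dvd_right (by
        rw [Nat.card_coe_set_eq, ← MulAction.index_stabilizer]
        exact (MulAction.stabilizer (ConjAct N) x).index_dvd_card) hcopN)
    rw [hall (g * x * g⁻¹) (hS.mpr (isConj_iff.mpr ⟨g, rfl⟩)), hall x (hS.mpr (IsConj.refl x))]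
  have hdiff : ∀ x y : N, x ≠ 1 → y ≠ 1 → MulAction.stabilizer H x ≠ MulAction.stabilizer H y →
      x * y = y * x := by
    intro x y hx hy hne
    by_contra hc
    have hc1 : ⁅x, y⁆ ≠ 1 := fun h => hc (commutatorElement_eq_one_iff_mul_comm.mp h)
    apply hne
    have h1 : MulAction.stabilizer H x ≤ MulAction.stabilizer H ⁅x, y⁆ := by
      intro h hh
      have hh' : h ∈ MulAction.stabilizer H (y * x⁻¹ * y⁻¹) := by
        rw [hconj x⁻¹ y (inv_ne_one.mpr hx), MulAction.mem_stabilizer_iff, smul_inv', MulAction.mem_stabilizer_iff.mp hh]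
      rw [MulAction.mem_stabilizer_iff] at hh hh' ⊢
      rw [show ⁅x, y⁆ = x * (y * x⁻¹ * y⁻¹) by simp [commutatorElement_def, mul_assoc], smul_mul', hh, hh']
    have h2 : MulAction.stabilizer H y ≤ MulAction.stabilizer H ⁅x, y⁆ := by
      intro h hh
      have hh' : h ∈ MulAction.stabilizer H (x * y * x⁻¹) := by
        rw [hconj y x hy]; exact hh
      rw [MulAction.mem_stabilizer_iff] at hh hh' ⊢
      rw [show ⁅x, y⁆ = (x * y * x⁻¹) * y⁻¹ from commutatorElement_def x y, smul_mul', smul_inv', hh, hh']
    exact (stab_eq_of_le hk hx hc1 h1).trans (stab_eq_of_le hk hy hc1 h2).symm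
  refine ⟨⟨fun x y => ?_⟩⟩
  by_cases hx : x = 1
  · rw [hx, one_mul, mul_one]
  by_cases hy : y = 1
  · rw [hy, one_mul, mul_one]
  by_cases hne : MulAction.stabilizer H x = MulAction.stabilizer H y
  · obtain ⟨z, hz, hzx⟩ := exists_stab_ne hk hfaith hex hx
    have hzy : z * y ≠ 1 := by
      intro h
      apply hzx
      rw [eq_inv_of_mul_eq_one_left h, hne]
      ext g
      simp [MulAction.mem_stabilizer_iff, smul_inv']
    have hzy' : MulAction.stabilizer H x ≠ MulAction.stabilizer H (z * y) := by
      intro heq
      apply hzx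
      refine (stab_eq_of_le hk hx hz fun g hg => ?_).symm
      have h1 : g • (z * y) = z * y := MulAction.mem_stabilizer_iff.mp (heq ▸ hg)
      have h2 : g • y = y := MulAction.mem_stabilizer_iff.mp (hne ▸ hg)
      rw [smul_mul', h2, mul_left_inj] at h1
      exact h1
    have e1 : Commute x z := hdiff x z hx hz (Ne.symm hzx)
    have e2 : Commute x (z * y) := hdiff x (z * y) hx hzy hzy'
    have e3 := e1.inv_right.mul_right e2
    rw [inv_mul_cancel_left] at e3
    exact e3
  · exact hdiff x y hx hy hne

/-- Prime exponent. -/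
theorem exists_prime_exponent [Nontrivial N] : ∃ p : ℕ, p.Prime ∧ ∀ x : N, x ^ p = 1 := by
  have hc := isMulCommutative hk hfaith hex
  have hN1 : Nat.card N ≠ 1 := (Finite.one_lt_card (α := N)).ne'
  obtain ⟨p, hp, hd⟩ := Nat.exists_prime_and_dvd hN1
  have : Fact p.Prime := ⟨hp⟩
  obtain ⟨x, hx⟩ := exists_prime_orderOf_dvd_card' p hd
  let M : Subgroup N :=
    { carrier := {y | y ^ p = 1}
      one_mem' := one_pow p
      mul_mem' := fun {a b} ha hb => by
        show (a * b) ^ p = 1
        rw [(show Commute a b from hc.is_comm.comm a b).mul_pow, show a ^ p = 1 from ha,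
          show b ^ p = 1 from hb, one_mul]
      inv_mem' := fun {a} ha => by show a⁻¹ ^ p = 1; rw [inv_pow, show a ^ p = 1 from ha, inv_one] }
  refine ⟨p, hp, fun y => ?_⟩
  rcases invariant_trivial hk hfaith hex (M := M) (fun h m hm => by
      show (h • m) ^ p = 1
      rw [← smul_pow', show m ^ p = 1 from hm, smul_one]) with h | h
  · exfalso
    have : x ∈ M := by show x ^ p = 1; rw [← hx]; exact pow_orderOf_eq_one x
    rw [h, Subgroup.mem_bot] at this
    rw [this, orderOf_one] at hx
    exact hp.one_lt.ne hx
  · exact (h ▸ Subgroup.mem_top y : y ∈ M)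

end Cfsg.Agent.Recog.HalfTrans
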