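import Cfsg.Agent.Recog.HalfTransitiveP

/-!
# Half-transitive linear p-groups with two or more blocks
-/

set_option autoImplicit false

namespace Cfsg.Agent.Recog.HalfP

set_option linter.style.haveILetI false

variable {q : ℕ} [Fact q.Prime] {V : Type*} [AddCommGroup V] [Module (ZMod q) V] [Finite V]
  {G : Type*} [Group G] [Finite G] [Nontrivial V] {ρ : G →* (V ≃ₗ[ZMod q] V)}
  (hρ : Function.Injective ρ)
  (hhalf : ∀ v w : V, v ≠ 0 → w ≠ 0 → Nat.card {u : V | ∃ g : G, ρ g v = u} = Nat.card {u : V | ∃ g : G, ρ g w = u})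
  (hex : ∃ v : V, v ≠ 0 ∧ stab ρ v ≠ ⊥) {p : ℕ} [Fact p.Prime] (hG : IsPGroup p G)
  {H : Subgroup G} {W : Fin p → Submodule (ZMod q) V} (hidx : H.index = p)
  (htop : iSup W = ⊤) (hind : iSupIndep W)
  (hinv : ∀ h ∈ H, ∀ i, ∀ w ∈ W i, ρ h w ∈ W i)
  (hker : ∀ i, ∃ h ∈ H, h ≠ 1 ∧ ∀ w ∈ W i, ρ h w = w)
  (hperm : ∀ g : G, g ∉ H → ∃ σ : Equiv.Perm (Fin p), orderOf σ = p ∧ ∀ i, (W i).map (ρ g : V →ₗ[ZMod q] V) = W (σ i))

include hidx htop hperm in
omit [Finite V] in
/-- Every block is non-trivial. -/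
theorem block_ne_bot (i : Fin p) : W i ≠ ⊥ := by
  classical
  intro hi
  have hpp : p.Prime := Fact.out
  obtain ⟨g, hg⟩ : ∃ g, g ∉ H := by
    by_contra hcon
    push Not at hcon
    rw [(Subgroup.eq_top_iff' H).mpr hcon, Subgroup.index_top] at hidx
    exact hpp.one_lt.ne hidx
  obtain ⟨σ, hσ, hmap⟩ := hperm g hg
  have hcyc : σ.IsCycle := Equiv.Perm.isCycle_of_prime_order' (by rw [hσ]; exact hpp)
    (by rw [hσ, Fintype.card_fin]; have := hpp.pos; omega)
  have hsupp : σ.support = Finset.univ :=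
    Finset.eq_univ_of_card _ (by rw [← hcyc.orderOf, hσ, Fintype.card_fin])
  have hall : ∀ n : ℕ, W ((σ ^ n) i) = ⊥ := by
    intro n
    induction n with
    | zero => simpa using hi
    | succ n ih => rw [pow_succ', Equiv.Perm.mul_apply, ← hmap, ih, Submodule.map_bot]
  have hbot : ∀ k, W k = ⊥ := by
    intro k
    obtain ⟨n, hn⟩ := hcyc.exists_pow_eq (x := i) (y := k)
      (Equiv.Perm.mem_support.mp (hsupp ▸ Finset.mem_univ i))
      (Equiv.Perm.mem_support.mp (hsupp ▸ Finset.mem_univ k))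
    exact hn ▸ hall n
  rw [iSup_eq_bot.mpr hbot] at htop
  exact bot_ne_top htop

include hρ hind hker hperm hidx htop in
omit [Finite V] in
/-- Outside `H` no element leaves a block invariant. -/
theorem moves {g : G} (hg : g ∉ H) {σ : Equiv.Perm (Fin p)} (hσ : orderOf σ = p)
    (hmap : ∀ i, (W i).map (ρ g : V →ₗ[ZMod q] V) = W (σ i)) (i : Fin p) : σ i ≠ i := by
  classical
  have hpp : p.Prime := Fact.out
  have hcyc : σ.IsCycle := Equiv.Perm.isCycle_of_prime_order' (by rw [hσ]; exact hpp)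
    (by rw [hσ, Fintype.card_fin]; have := hpp.pos; omega)
  have hsupp : σ.support = Finset.univ :=
    Finset.eq_univ_of_card _ (by rw [← hcyc.orderOf, hσ, Fintype.card_fin])
  exact Equiv.Perm.mem_support.mp (hsupp ▸ Finset.mem_univ i)

include hρ hind hker hperm hidx htop hinv in
/-- Stabilisers of vectors in a block lie in `H`. -/
theorem stab_le {i : Fin p} {w : V} (hw : w ∈ W i) (hw0 : w ≠ 0) : stab ρ w ≤ H := by
  intro g hg
  by_contra hgH
  obtain ⟨σ, hσ, hmap⟩ := hperm g hgH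
  have h1 : w ∈ W (σ i) := hmap i ▸ ⟨w, hw, mem_stab.mp hg⟩
  exact hw0 (Submodule.disjoint_def.mp
    (hind.pairwiseDisjoint (moves hρ hidx htop hind hker hperm hgH hσ hmap i).symm) w hw h1)

include hρ hind hker hperm hidx htop hinv hhalf hex in
/-- There are only two blocks. -/
theorem eq_two : p = 2 := by
  classical
  by_contra hp2
  have hpp : p.Prime := Fact.out
  have hodd : Odd p := hpp.odd_of_ne_two hp2
  have key : ∀ i j, i ≠ j → ∀ u ∈ W i, u ≠ 0 → ∀ w ∈ W j, w ≠ 0 → stab ρ u = stab ρ w := by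
    intro i j hij u hu hu0 w hw hw0
    have hne : u + w ≠ 0 := fun h => hu0 (Submodule.disjoint_def.mp (hind.pairwiseDisjoint hij) u hu
      (by rw [eq_neg_of_add_eq_zero_left h]; exact neg_mem hw))
    have hdis := hind.pairwiseDisjoint
    have hle : stab ρ (u + w) ≤ H := by
      intro g hg
      by_contra hgH
      obtain ⟨σ, hσ, hmap⟩ := hperm g hgH
      have hu' : ρ g u ∈ W (σ i) := hmap i ▸ ⟨u, hu, rfl⟩
      have hw' : ρ g w ∈ W (σ j) := hmap j ▸ ⟨w, hw, rfl⟩
      have heq : ρ g u + ρ g w = u + w := by rw [← map_add]; exact mem_stab.mp hg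
      have hgu0 : ρ g u ≠ 0 := fun h => hu0 ((ρ g).map_eq_zero_iff.mp h)
      have hgw0 : ρ g w ≠ 0 := fun h => hw0 ((ρ g).map_eq_zero_iff.mp h)
      -- the permutation exchanges `i` and `j`
      have hswap : σ i = j ∧ σ j = i := by
        have aux : ∀ (k : Fin p) (x y z : V), x ∈ W k → k ≠ i → k ≠ j → k ≠ σ j → y ∈ W (σ j) →
            x + y = u + w → x = 0 := by
          intro k x y z hx hki hkj hkσ hy he
          have hsum : x ∈ ⨆ (l) (_ : l ≠ k), W l := by
            rw [eq_sub_of_add_eq he]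
            exact sub_mem (add_mem (Submodule.mem_iSup_of_mem i (Submodule.mem_iSup_of_mem hki.symm hu))
              (Submodule.mem_iSup_of_mem j (Submodule.mem_iSup_of_mem hkj.symm hw)))
              (Submodule.mem_iSup_of_mem (σ j) (Submodule.mem_iSup_of_mem hkσ.symm hy))
          exact Submodule.disjoint_def.mp (hind k) x hx hsum
        have hσne : σ i ≠ σ j := fun h => hij (σ.injective h)
        have hσi := moves hρ hidx htop hind hker hperm hgH hσ hmap i
        have hσj := moves hρ hidx htop hind hker hperm hgH hσ hmap j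
        have h1 : σ i = j := by
          by_contra h1
          exact hgu0 (aux (σ i) _ _ 0 hu' hσi h1 hσne hw' heq)
        refine ⟨h1, ?_⟩
        by_contra h2
        have hsum : ρ g w ∈ ⨆ (l) (_ : l ≠ σ j), W l := by
          rw [eq_sub_of_add_eq ((add_comm _ _).trans heq)]
          exact sub_mem (add_mem (Submodule.mem_iSup_of_mem i (Submodule.mem_iSup_of_mem (Ne.symm h2) hu))
            (Submodule.mem_iSup_of_mem j (Submodule.mem_iSup_of_mem hσj.symm hw)))
            (Submodule.mem_iSup_of_mem (σ i) (Submodule.mem_iSup_of_mem hσne hu'))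
        exact hgw0 (Submodule.disjoint_def.mp (hind (σ j)) _ hw' hsum)
      obtain ⟨hi, hj⟩ := hswap
      obtain ⟨t, ht⟩ := hodd
      have h2 : (σ ^ 2) i = i := by rw [pow_two, Equiv.Perm.mul_apply, hi, hj]
      have h3 : ∀ n : ℕ, ((σ ^ 2) ^ n) i = i := by
        intro n
        induction n with
        | zero => rfl
        | succ n ih => rw [pow_succ, Equiv.Perm.mul_apply, h2, ih]
      have h4 : (σ ^ (2 * t + 1)) i = j := by
        rw [pow_succ', Equiv.Perm.mul_apply, pow_mul, h3, hi]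
      rw [orderOf_dvd_iff_pow_eq_one.mp (by rw [hσ]; exact dvd_of_eq ht)] at h4
      exact hij h4
    have hsub : ∀ h ∈ stab ρ (u + w), ρ h u = u ∧ ρ h w = w := by
      intro h hh
      have hH := hle hh
      have hu' := hinv h hH i u hu
      have hw' := hinv h hH j w hw
      have heq : ρ h u + ρ h w = u + w := by rw [← map_add]; exact mem_stab.mp hh
      have h1 : ρ h u - u = w - ρ h w := by rw [sub_eq_sub_iff_add_eq_add, add_comm w u, heq]
      have h0 : ρ h u - u = 0 := Submodule.disjoint_def.mp (hdis hij) _ (sub_mem hu' hu)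
        (h1 ▸ sub_mem hw hw')
      rw [h0] at h1
      exact ⟨sub_eq_zero.mp h0, (sub_eq_zero.mp h1.symm).symm⟩
    exact (stab_eq_of_le hhalf hne hu0 fun h hh => (hsub h hh).1).symm.trans
      (stab_eq_of_le hhalf hne hw0 fun h hh => (hsub h hh).2)
  obtain ⟨u₀, hu₀, hu₀0⟩ := Submodule.exists_mem_ne_zero_of_ne_bot
    (block_ne_bot hidx htop hperm ⟨0, hpp.pos⟩)
  set K := stab ρ u₀
  have hall : ∀ k, ∀ w ∈ W k, w ≠ 0 → stab ρ w = K := by
    intro k w hw hw0
    by_cases hk : k = ⟨0, hpp.pos⟩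
    · have hone : (⟨1, hpp.one_lt⟩ : Fin p) ≠ ⟨0, hpp.pos⟩ := by simp [Fin.ext_iff]
      obtain ⟨x, hx, hx0⟩ := Submodule.exists_mem_ne_zero_of_ne_bot
        (block_ne_bot hidx htop hperm ⟨1, hpp.one_lt⟩)
      exact (key k ⟨1, hpp.one_lt⟩ (hk ▸ hone.symm) w hw hw0 x hx hx0).trans
        (key _ _ hone x hx hx0 u₀ hu₀ hu₀0)
    · exact key k _ hk w hw hw0 u₀ hu₀ hu₀0
  refine false_of_all_eq hρ hhalf hex (K := K) fun v hv => ?_
  refine (stab_eq_of_le hhalf hu₀0 hv fun g hg => ?_).symm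
  rw [mem_stab]
  have hmem : v ∈ iSup W := htop ▸ Submodule.mem_top
  induction hmem using Submodule.iSup_induction' with
  | mem k w hw =>
    by_cases hw0 : w = 0
    · rw [hw0, map_zero]
    · exact mem_stab.mp ((hall k w hw hw0).symm ▸ hg : g ∈ stab ρ w)
  | zero => exact map_zero _
  | add a b _ _ ha hb =>
    rw [map_add]
    by_cases ha0 : a = 0
    · subst ha0
      rw [map_zero, zero_add, zero_add]
      exact hb (by simpa using hv)
    by_cases hb0 : b = 0
    · subst hb0
      rw [map_zero, add_zero, add_zero]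
      exact ha ha0
    · rw [ha ha0, hb hb0]

end Cfsg.Agent.Recog.HalfP
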