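import Cfsg.Agent.Recog.HalfTransitiveTwo

/-!
# Half-transitive linear groups of dihedral and semidihedral type
-/

set_option autoImplicit false

namespace Cfsg.Agent.Recog.HalfP

set_option linter.style.haveILetI false

variable {q : ℕ} [Fact q.Prime] {V : Type*} [AddCommGroup V] [Module (ZMod q) V] [Finite V]
  {G : Type*} [Group G] [Finite G] [Nontrivial V] {ρ : G →* (V ≃ₗ[ZMod q] V)}
  (hρ : Function.Injective ρ)
  (hhalf : ∀ v w : V, v ≠ 0 → w ≠ 0 → Nat.card {u : V | ∃ g : G, ρ g v = u} = Nat.card {u : V | ∃ g : G, ρ g w = u})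
  (hex : ∃ v : V, v ≠ 0 ∧ stab ρ v ≠ ⊥)

include hρ hhalf hex in
/-- A group with a cyclic subgroup of index two, `2 ^ k` involutions outside it, each conjugate to
its product with the central involution. -/
theorem two_dim_of_cyclic (hpq : ((2 : ℕ) : ZMod q) ≠ 0) {n k : ℕ} (hn : 2 ≤ n) {x y : G}
    (hx : orderOf x = 2 ^ n) (hcard : Nat.card G = 2 ^ (n + 1))
    (hy : y ∉ Subgroup.zpowers x)
    (hconj : x ^ 2 ^ (n - 2) * y * (x ^ 2 ^ (n - 2))⁻¹ = x ^ 2 ^ (n - 1) * y)
    (hcount : Nat.card {t : G // t ∉ Subgroup.zpowers x ∧ t * t = 1} = 2 ^ k) :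
    Nat.card V = q ^ 2 ∧ q = 2 ^ k - 1 := by
  classical
  have h2ne : (2 : ZMod q) ≠ 0 := by simpa using hpq
  set A := Subgroup.zpowers x
  have hAidx : A.index = 2 := by
    have h := A.card_mul_index
    rw [Nat.card_zpowers, hx, hcard, pow_succ] at h
    exact Nat.eq_of_mul_eq_mul_left (by positivity) h
  set z := x ^ 2 ^ (n - 1) with hz
  have hpow : 2 ^ (n - 1) * 2 = 2 ^ n := by rw [← pow_succ]; congr 1; omega
  have hz2 : z * z = 1 := by
    rw [hz, ← pow_add, ← two_mul, mul_comm, hpow, ← hx, pow_orderOf_eq_one]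
  have hz1 : z ≠ 1 := by
    intro h
    have := Nat.le_of_dvd (by positivity) (hx ▸ orderOf_dvd_of_pow_eq_one h)
    have : 2 ^ (n - 1) < 2 ^ n := Nat.pow_lt_pow_right one_lt_two (by omega)
    omega
  have hout : ∀ g : G, g ∉ A → ∃ i : ℤ, g = x ^ i * y := by
    intro g hg
    have : g * y⁻¹ ∈ A := (Subgroup.mul_mem_iff_of_index_two hAidx).mpr
      (iff_of_false hg (fun h => hy (inv_inv y ▸ inv_mem h)))
    obtain ⟨i, hi⟩ := Subgroup.mem_zpowers_iff.mp this
    exact ⟨i, by rw [hi, inv_mul_cancel_right]⟩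
  -- `z` is central
  have hzc : z ∈ Subgroup.center G := by
    set w := x ^ 2 ^ (n - 2) with hw
    have hww : w * w = z := by
      rw [hw, hz, ← pow_add, ← two_mul, ← pow_succ']; congr 2; omega
    have hy1 : w * y = z * y * w := by rw [← hconj, inv_mul_cancel_right]
    have hwz : Commute w z := Commute.pow_pow_self x _ _
    have hy2 : z * y * z⁻¹ = y := by
      calc z * y * z⁻¹ = w * (w * y * w⁻¹) * w⁻¹ := by rw [← hww]; group
        _ = w * (z * y) * w⁻¹ := by rw [hconj]
        _ = z * (w * y * w⁻¹) := by rw [← mul_assoc w z, hwz.eq]; group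
        _ = (z * z) * y := by rw [hconj]; group
        _ = y := by rw [hz2, one_mul]
    refine Subgroup.mem_center_iff.mpr fun g => ?_
    by_cases hg : g ∈ A
    · obtain ⟨i, rfl⟩ := Subgroup.mem_zpowers_iff.mp hg
      exact ((Commute.self_pow x _).zpow_left i).eq
    · obtain ⟨i, rfl⟩ := hout g hg
      rw [mul_inv_eq_iff_eq_mul] at hy2
      rw [mul_assoc, ← hy2, ← mul_assoc, ((Commute.self_pow x (2 ^ (n - 1))).zpow_left i).eq, mul_assoc]
  have hzfree := central_free hρ hhalf hex hzc hz1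
  have hzneg : ∀ v : V, ρ z v = -v := by
    intro v
    by_contra hne
    refine hzfree (v + ρ z v) (fun h => hne (eq_neg_of_add_eq_zero_right h)) ?_
    rw [map_add, ← LinearEquiv.mul_apply (ρ z) (ρ z), ← map_mul, hz2, map_one, LinearEquiv.coe_one,
      id, add_comm]
  -- each stabiliser is generated by an involution outside `A`
  have hAfree : ∀ v : V, v ≠ 0 → ∀ a ∈ A, a ∈ stab ρ v → a = 1 := by
    intro v hv a ha hav
    by_contra ha1
    have hexz : ∃ i : ℕ, a ^ i = z := by
      obtain ⟨l, hl⟩ : ∃ l, orderOf a = 2 ^ l := by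
        obtain ⟨l, -, hl⟩ := (Nat.dvd_prime_pow Nat.prime_two).mp
          (hx ▸ orderOf_dvd_of_mem_zpowers ha)
        exact ⟨l, hl⟩
      have hl0 : l ≠ 0 := fun h => ha1 (orderOf_eq_one_iff.mp (by rw [hl, h, pow_zero]))
      refine ⟨2 ^ (l - 1), ?_⟩
      set b := a ^ 2 ^ (l - 1)
      have hb2 : b * b = 1 := by
        rw [← pow_add, ← two_mul, ← pow_succ', show l - 1 + 1 = l by omega, ← hl, pow_orderOf_eq_one]
      have hb1 : b ≠ 1 := by
        intro h
        have := Nat.le_of_dvd (by positivity) (hl ▸ orderOf_dvd_of_pow_eq_one h)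
        have : 2 ^ (l - 1) < 2 ^ l := Nat.pow_lt_pow_right one_lt_two (by omega)
        omega
      obtain ⟨i, hi⟩ := (isOfFinOrder_of_finite x).mem_powers_iff_mem_zpowers.mpr (pow_mem ha (2 ^ (l - 1)))
      have hbi : b = x ^ i := hi.symm
      have hdvd : 2 ^ (n - 1) * 2 ∣ i * 2 := by
        rw [hpow, ← hx]
        exact orderOf_dvd_of_pow_eq_one (by rw [mul_comm, two_mul, pow_add, ← hbi, hb2])
      obtain ⟨c, hc⟩ := Nat.dvd_of_mul_dvd_mul_right two_pos hdvd
      rw [hbi, hc, pow_mul]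
      obtain ⟨c', rfl | rfl⟩ := c.even_or_odd'
      · exfalso
        apply hb1
        rw [hbi, hc, pow_mul, pow_mul, ← hz, sq, hz2, one_pow]
      · show z ^ (2 * c' + 1) = z
        rw [pow_succ, pow_mul, sq, hz2, one_pow, one_mul]
    obtain ⟨i, hi⟩ := hexz
    exact hzfree v hv (mem_stab.mp (hi ▸ pow_mem hav i : z ∈ stab ρ v))
  have hstab : ∀ v : V, v ≠ 0 → ∃ t : {t : G // t ∉ A ∧ t * t = 1}, ρ (t : G) v = v := by
    intro v hv
    obtain ⟨w, hw, hne⟩ := hex
    have hnb : stab ρ v ≠ ⊥ := fun h => by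
      have h1 := card_stab_eq hhalf hw hv
      rw [h, Subgroup.card_bot] at h1
      exact hne (Subgroup.eq_bot_of_card_eq _ h1)
    obtain ⟨t, ht, ht1⟩ := (Subgroup.bot_or_exists_ne_one _).resolve_left hnb
    have htA : t ∉ A := fun h => ht1 (hAfree v hv t h ht)
    exact ⟨⟨t, htA, hAfree v hv _ (Subgroup.mul_self_mem_of_index_two hAidx t) (mul_mem ht ht)⟩, ht⟩
  have huniq : ∀ v : V, v ≠ 0 → ∀ s t : {t : G // t ∉ A ∧ t * t = 1},
      ρ (s : G) v = v → ρ (t : G) v = v → s = t := by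
    intro v hv s t hs ht
    have h1 : (s : G) * t ∈ A := (Subgroup.mul_mem_iff_of_index_two hAidx).mpr (iff_of_false s.2.1 t.2.1)
    have h2 := hAfree v hv _ h1 (mul_mem (mem_stab.mpr hs) (mem_stab.mpr ht))
    exact Subtype.ext (mul_right_cancel (h2.trans t.2.2.symm))
  -- the fixed spaces all have the same size
  have hsq : ∀ t : {t : G // t ∉ A ∧ t * t = 1},
      Nat.card (PGroupImprim.fix ρ (t : G)) * Nat.card (PGroupImprim.fix ρ (t : G)) = Nat.card V := by
    intro t
    have htt : ∀ v : V, ρ (t : G) (ρ (t : G) v) = v := fun v => by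
      rw [← LinearEquiv.mul_apply, ← map_mul, t.2.2, map_one]; rfl
    set w := x ^ 2 ^ (n - 2)
    have hwt : w * (t : G) * w⁻¹ = z * t := by
      obtain ⟨i, hi⟩ := hout t t.2.1
      rw [hi]
      calc w * (x ^ i * y) * w⁻¹ = x ^ i * (w * y * w⁻¹) := by
            rw [← mul_assoc w, ((Commute.pow_self x (2 ^ (n - 2))).zpow_right i).eq]; simp only [mul_assoc]; rfl
        _ = x ^ i * (z * y) := by rw [hconj]
        _ = z * (x ^ i * y) := by
            rw [← mul_assoc, Subgroup.mem_center_iff.mp hzc (x ^ i), mul_assoc]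
    let f : PGroupImprim.fix ρ (t : G) × PGroupImprim.fix ρ (t : G) → V :=
      fun u => (u.1 : V) + ρ w u.2
    have hanti : ∀ u ∈ PGroupImprim.fix ρ (t : G), ρ (t : G) (ρ w u) = -ρ w u := by
      intro u hu
      have h1 : ρ (z * t) (ρ w u) = ρ w u := by
        rw [← hwt, ← LinearEquiv.mul_apply, ← map_mul, inv_mul_cancel_right, map_mul,
          LinearEquiv.mul_apply, PGroupImprim.mem_fix.mp hu]
      rw [map_mul, LinearEquiv.mul_apply, hzneg] at h1
      exact neg_eq_iff_eq_neg.mp h1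
    have hconv : ∀ v : V, ρ (t : G) v = -v → ∃ u ∈ PGroupImprim.fix ρ (t : G), ρ w u = v := by
      intro v hv
      refine ⟨ρ w⁻¹ v, PGroupImprim.mem_fix.mpr ((ρ w).injective ?_), ?_⟩
      · have e : w * (t : G) = z * t * w := by rw [← hwt, inv_mul_cancel_right]
        rw [← LinearEquiv.mul_apply (ρ w) (ρ (t : G)), ← map_mul, e, map_mul, map_mul]
        show ρ z (ρ (t : G) (ρ w (ρ w⁻¹ v))) = ρ w (ρ w⁻¹ v)
        have e1 : ρ w (ρ w⁻¹ v) = v := by
          rw [← LinearEquiv.mul_apply, ← map_mul, mul_inv_cancel, map_one]; rfl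
        rw [e1, hv, hzneg, neg_neg]
      · rw [← LinearEquiv.mul_apply, ← map_mul, mul_inv_cancel, map_one]; rfl
    have hf : Function.Bijective f := by
      refine ⟨fun a b hab => ?_, fun v => ?_⟩
      · have h1 : (a.1 : V) + ρ w a.2 = (b.1 : V) + ρ w b.2 := hab
        have h2 := congrArg (ρ (t : G)) h1
        rw [map_add, map_add, PGroupImprim.mem_fix.mp a.1.2, PGroupImprim.mem_fix.mp b.1.2,
          hanti _ a.2.2, hanti _ b.2.2] at h2
        have h3 : (2 : ZMod q) • (a.1 : V) = (2 : ZMod q) • (b.1 : V) := by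
          rw [two_smul, two_smul]
          calc (a.1 : V) + a.1 = ((a.1 : V) + ρ w a.2) + ((a.1 : V) + -ρ w a.2) := by abel
            _ = _ := by rw [h1, h2]; abel
        have h4 := smul_right_injective V h2ne h3
        rw [h4] at h1
        exact Prod.ext (Subtype.ext h4) (Subtype.ext ((ρ w).injective (add_left_cancel h1)))
      · set a := (2 : ZMod q)⁻¹ • (v + ρ (t : G) v)
        set b := (2 : ZMod q)⁻¹ • (v - ρ (t : G) v)
        have ha : a ∈ PGroupImprim.fix ρ (t : G) := by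
          rw [PGroupImprim.mem_fix, map_smul, map_add, htt, add_comm]
        obtain ⟨u, hu, hub⟩ := hconv b (by
          rw [map_smul, map_sub, htt, ← smul_neg, neg_sub])
        refine ⟨(⟨a, ha⟩, ⟨u, hu⟩), ?_⟩
        show a + ρ w u = v
        rw [hub, ← smul_add, add_add_sub_cancel, ← two_smul (ZMod q) v, smul_smul,
          inv_mul_cancel₀ h2ne, one_smul]
    rw [← Nat.card_prod, Nat.card_eq_of_bijective f hf]
  -- the count
  obtain ⟨t₀, -⟩ : ∃ t : {t : G // t ∉ A ∧ t * t = 1}, True := by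
    obtain ⟨v, hv⟩ := exists_ne (0 : V)
    exact ⟨(hstab v hv).choose, trivial⟩
  set c := Nat.card (PGroupImprim.fix ρ (t₀ : G))
  have hc : ∀ t : {t : G // t ∉ A ∧ t * t = 1}, Nat.card (PGroupImprim.fix ρ (t : G)) = c :=
    fun t => Nat.mul_self_inj.mp ((hsq t).trans (hsq t₀).symm)
  choose τ hτ using hstab
  let Φ : {v : V // v ≠ 0} →
      Σ t : {t : G // t ∉ A ∧ t * t = 1}, {u : PGroupImprim.fix ρ (t : G) // u ≠ 0} :=
    fun v => ⟨τ v v.2, ⟨v, hτ v v.2⟩, fun h => v.2 (congrArg Subtype.val h)⟩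
  have hΦ : Function.Bijective Φ := by
    refine ⟨fun v w h => ?_, fun ⟨t, u, hu⟩ => ?_⟩
    · exact Subtype.ext (congrArg (fun r : Σ t : {t : G // t ∉ A ∧ t * t = 1},
        {u : PGroupImprim.fix ρ (t : G) // u ≠ 0} => ((r.2.1 : PGroupImprim.fix ρ _) : V)) h)
    · have hu' : (u : V) ≠ 0 := fun h => hu (Subtype.ext h)
      refine ⟨⟨u, hu'⟩, ?_⟩
      have ht : τ (u : V) hu' = t := huniq _ hu' _ _ (hτ _ hu') u.2
      have key : ∀ (s : {t : G // t ∉ A ∧ t * t = 1}) (_ : s = t) (hs : ρ (s : G) (u : V) = u)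
          (h0 : (⟨(u : V), hs⟩ : PGroupImprim.fix ρ (s : G)) ≠ 0),
          (⟨s, ⟨⟨(u : V), hs⟩, h0⟩⟩ : Σ t : {t : G // t ∉ A ∧ t * t = 1},
            {u : PGroupImprim.fix ρ (t : G) // u ≠ 0}) = ⟨t, ⟨u, hu⟩⟩ := by
        intro s hs' hs h0
        subst hs'
        rfl
      exact key _ ht _ _
  have hkey : c * c - 1 = 2 ^ k * (c - 1) := by
    have : Fintype V := Fintype.ofFinite V
    have : Fintype {t : G // t ∉ A ∧ t * t = 1} := Fintype.ofFinite _
    have h1 := Nat.card_eq_of_bijective Φ hΦ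
    rw [Nat.card_sigma, Nat.card_eq_fintype_card, Fintype.card_subtype_compl,
      Fintype.card_subtype_eq, ← Nat.card_eq_fintype_card, ← hsq t₀] at h1
    rw [h1, Finset.sum_congr rfl (fun t _ => ?_), Finset.sum_const, smul_eq_mul, Finset.card_univ,
      ← Nat.card_eq_fintype_card, hcount]
    have : Fintype (PGroupImprim.fix ρ (t : G)) := Fintype.ofFinite _
    rw [Nat.card_eq_fintype_card, Fintype.card_subtype_compl, Fintype.card_subtype_eq,
      ← Nat.card_eq_fintype_card, hc]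
  obtain ⟨d, hd⟩ : ∃ d, c = q ^ d :=
    ⟨_, (Module.natCard_eq_pow_finrank (K := ZMod q) (V := PGroupImprim.fix ρ (t₀ : G))).trans
      (by rw [Nat.card_zmod])⟩
  have hc1 : 1 < c := by
    by_contra hcon
    have hc1 : c = 1 := le_antisymm (by omega) Nat.card_pos
    have := hsq t₀
    rw [show Nat.card (PGroupImprim.fix ρ (t₀ : G)) = 1 from hc1, one_mul] at this
    exact (Finite.one_lt_card (α := V)).ne this
  have hk : 2 ^ k = c + 1 := by
    have h : c * c - 1 = (c + 1) * (c - 1) := by rw [← Nat.sq_sub_sq, one_pow, sq]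
    rw [h] at hkey
    exact (Nat.eq_of_mul_eq_mul_right (by omega) hkey).symm
  have hd1 : 1 ≤ d := by
    rcases Nat.eq_zero_or_pos d with rfl | h
    · rw [pow_zero] at hd; omega
    · exact h
  obtain rfl := S3370.eq_one_of_two_pow_sub_one_eq (p := q) (n := k) Fact.out hd1 (by omega)
  rw [pow_one] at hd
  exact ⟨by rw [← hsq t₀, show Nat.card (PGroupImprim.fix ρ (t₀ : G)) = q from hd, sq], by omega⟩

include hρ hhalf hex in
/-- The dihedral case. -/
theorem dihedral_case (hpq : ((2 : ℕ) : ZMod q) ≠ 0) {N : ℕ} (e : G ≃* DihedralGroup N)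
    (hG : IsPGroup 2 G) (hab : ¬ ∀ a b : G, a * b = b * a) :
    Nat.card V = q ^ 2 ∧ ∃ m : ℕ, q = 2 ^ m - 1 ∧ Nonempty (G ≃* DihedralGroup (2 ^ m)) := by
  classical
  obtain ⟨j, hj⟩ := IsPGroup.iff_card.mp hG
  rw [Nat.card_congr e.toEquiv, DihedralGroup.nat_card] at hj
  have hN0 : N ≠ 0 := by
    rintro rfl
    have := Nat.two_pow_pos j
    omega
  obtain ⟨i, -, hi⟩ := (Nat.dvd_prime_pow Nat.prime_two).mp (Dvd.intro_left 2 hj : N ∣ 2 ^ j)
  subst hi
  have hi2 : 2 ≤ i := by
    by_contra hcon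
    refine hab fun a b => e.injective ?_
    rw [map_mul, map_mul]
    rcases (by omega : i = 0 ∨ i = 1) with rfl | rfl
    · revert a b
      have : ∀ a b : DihedralGroup (2 ^ 0), a * b = b * a := by decide
      exact fun a b => this _ _
    · have : ∀ a b : DihedralGroup (2 ^ 1), a * b = b * a := by decide
      exact this _ _
  have : NeZero (2 ^ i) := ⟨hN0⟩
  set x := e.symm (DihedralGroup.r 1)
  set y := e.symm (DihedralGroup.sr 0)
  have hx : orderOf x = 2 ^ i := by rw [MulEquiv.orderOf_eq, DihedralGroup.orderOf_r_one]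
  have hmemA : ∀ g : G, g ∈ Subgroup.zpowers x ↔ ∃ l, e g = DihedralGroup.r l := by
    intro g
    constructor
    · rintro ⟨l, rfl⟩
      exact ⟨(l : ZMod (2 ^ i)), by simp [x, DihedralGroup.r_zpow]⟩
    · rintro ⟨l, hl⟩
      refine ⟨l.val, e.injective ?_⟩
      simp [x, hl, DihedralGroup.r_one_pow]
  have hy : y ∉ Subgroup.zpowers x := fun h => by
    obtain ⟨l, hl⟩ := (hmemA y).mp h
    simp [y] at hl
  obtain ⟨h1, h2⟩ := two_dim_of_cyclic hρ hhalf hex hpq (n := i) (k := i) hi2 hx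
    (by rw [Nat.card_congr e.toEquiv, DihedralGroup.nat_card, pow_succ, mul_comm]) hy (by
      apply e.injective
      simp only [x, y, map_mul, map_inv, map_pow, MulEquiv.apply_symm_apply, DihedralGroup.r_one_pow,
        DihedralGroup.r_mul_sr, DihedralGroup.inv_r, DihedralGroup.sr_mul_r]
      congr 1
      rw [zero_sub, zero_sub, ← neg_add, ← Nat.cast_add, ← two_mul, ← pow_succ']
      congr 3; omega) (by
      have hmem : ∀ l : ZMod (2 ^ i), e.symm (DihedralGroup.sr l) ∉ Subgroup.zpowers x ∧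
          e.symm (DihedralGroup.sr l) * e.symm (DihedralGroup.sr l) = 1 := fun l => by
        refine ⟨fun h => ?_, e.injective (by simp)⟩
        obtain ⟨l', hl'⟩ := (hmemA _).mp h
        simp at hl'
      let F : ZMod (2 ^ i) → {t : G // t ∉ Subgroup.zpowers x ∧ t * t = 1} := fun l =>
        ⟨e.symm (DihedralGroup.sr l), hmem l⟩
      have hF : Function.Bijective F := by
        refine ⟨fun a b h => ?_, fun t => ?_⟩
        · simpa [F] using congrArg Subtype.val h
        · rcases ht : e t.1 with l | l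
          · exact absurd ((hmemA _).mpr ⟨l, ht⟩) t.2.1
          · exact ⟨l, Subtype.ext (e.injective (by simp [F, ht]))⟩
      rw [← Nat.card_eq_of_bijective F hF, Nat.card_zmod])
  exact ⟨h1, i, h2, ⟨e⟩⟩

include hρ hhalf hex in
/-- The semidihedral case. -/
theorem quasidihedral_case (hpq : ((2 : ℕ) : ZMod q) ≠ 0) (hqd : Cfsg.IsQuasiDihedral G) :
    Nat.card V = q ^ 2 ∧ ∃ m : ℕ, q = 2 ^ m - 1 ∧ Cfsg.IsQuasiDihedral G ∧ Nat.card G = 2 ^ (m + 2) := by
  classical
  have hqd' := hqd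
  obtain ⟨n, hn, hcard, x, y, hx, hyo, hyx⟩ := hqd
  have hy2 : y * y = 1 := by rw [← sq, ← hyo]; exact pow_orderOf_eq_one y
  have hyinv : y⁻¹ = y := inv_eq_of_mul_eq_one_right hy2
  set E := 2 ^ (n - 1) - 1 with hE
  have hpow : 2 ^ (n - 1) * 2 = 2 ^ n := by rw [← pow_succ]; congr 1; omega
  have h4 : 4 ≤ 2 ^ (n - 1) := by
    calc 4 = 2 ^ 2 := by norm_num
      _ ≤ 2 ^ (n - 1) := Nat.pow_le_pow_right two_pos (by omega)
  have hy : y ∉ Subgroup.zpowers x := by
    intro h
    obtain ⟨i, rfl⟩ := Subgroup.mem_zpowers_iff.mp h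
    rw [(Commute.zpow_self x i).eq, mul_inv_cancel_right] at hyx
    have h1 : x ^ (E - 1) * x = 1 * x := by rw [← pow_succ, show E - 1 + 1 = E by omega, one_mul, ← hyx]
    have h2 := Nat.le_of_dvd (by omega) (hx ▸ orderOf_dvd_of_pow_eq_one (mul_right_cancel h1))
    omega
  have hswap : ∀ j : ℕ, y * x ^ j = x ^ (E * j) * y := by
    intro j
    induction j with
    | zero => simp
    | succ j ih =>
      rw [pow_succ, ← mul_assoc, ih, mul_assoc, show y * x = x ^ E * y by
        rw [← hyx, inv_mul_cancel_right], ← mul_assoc, ← pow_add]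
      ring_nf
  have hfo : IsOfFinOrder x := isOfFinOrder_of_finite x
  have hAidx : (Subgroup.zpowers x).index = 2 := by
    have h := (Subgroup.zpowers x).card_mul_index
    rw [Nat.card_zpowers, hx, hcard, pow_succ] at h
    exact Nat.eq_of_mul_eq_mul_left (by positivity) h
  have hsqE : ∀ i : ℕ, x ^ i * y * (x ^ i * y) = x ^ (2 ^ (n - 1) * i) := by
    intro i
    have : x ^ i * y * (x ^ i * y) = x ^ i * (y * x ^ i) * y := by group
    rw [this, hswap, ← mul_assoc, mul_assoc (x ^ i * x ^ (E * i)), hy2, mul_one, ← pow_add]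
    congr 1
    rw [show i + E * i = (E + 1) * i by ring, hE, show 2 ^ (n - 1) - 1 + 1 = 2 ^ (n - 1) by omega]
  obtain ⟨h1, h2⟩ := two_dim_of_cyclic hρ hhalf hex hpq (n := n) (k := n - 1) (by omega) hx hcard hy (by
      set j := 2 ^ (n - 2)
      have hj : j * 2 = 2 ^ (n - 1) := by rw [← pow_succ]; congr 1; omega
      -- `E * j + 2 ^ (n - 1)` is congruent to `j`
      rw [mul_inv_eq_iff_eq_mul, mul_assoc, hswap, ← mul_assoc, ← pow_add]
      congr 1
      rw [pow_eq_pow_iff_modEq, hx]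
      obtain ⟨l, hl⟩ : ∃ l, 2 ^ (n - 1) = 4 * l := ⟨2 ^ (n - 3), by
        rw [show (4 : ℕ) = 2 ^ 2 by norm_num, ← pow_add]; congr 1; omega⟩
      have hjl : j = 2 * l := by omega
      have hN : 2 ^ n = 8 * l := by omega
      rw [hE, hl, hN, hjl]
      unfold Nat.ModEq
      have e1 : (4 * l - 1) * (2 * l) + 2 * l = 8 * l * l := by
        obtain ⟨u, hu⟩ := Nat.exists_eq_add_of_le (show 1 ≤ 4 * l by omega)
        rw [hu, Nat.add_sub_cancel_left]
        have : 8 * l * l = (4 * l) * (2 * l) := by ring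
        rw [this, hu]; ring
      have hpos : 0 < l := by omega
      have e2 : 4 * l + (4 * l - 1) * (2 * l) = 2 * l + 8 * l * l := by
        have : 2 * l + 2 * l = 4 * l := by ring
        omega
      rw [e2, Nat.add_mul_mod_self_left]) (by
      have hpos : 0 < 2 ^ (n - 1) := by positivity
      let f : Fin (2 ^ (n - 1)) → {t : G // t ∉ Subgroup.zpowers x ∧ t * t = 1} := fun i =>
        ⟨x ^ (2 * (i : ℕ)) * y, fun h => hy (by
            simpa using mul_mem (inv_mem (pow_mem (Subgroup.mem_zpowers x) (2 * (i : ℕ)))) h), by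
          rw [hsqE, ← mul_assoc, hpow, ← hx, pow_mul, pow_orderOf_eq_one, one_pow]⟩
      have hf : Function.Bijective f := by
        refine ⟨fun a b h => ?_, fun t => ?_⟩
        · have h' : x ^ (2 * (a : ℕ)) = x ^ (2 * (b : ℕ)) := mul_right_cancel (congrArg Subtype.val h)
          have ha := a.2
          have hb := b.2
          have := pow_injOn_Iio_orderOf (G := G) (x := x)
            (show 2 * (a : ℕ) ∈ Set.Iio (orderOf x) by rw [Set.mem_Iio, hx]; omega)
            (show 2 * (b : ℕ) ∈ Set.Iio (orderOf x) by rw [Set.mem_Iio, hx]; omega) h'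
          exact Fin.ext (by omega)
        · obtain ⟨i, hi⟩ := hfo.mem_powers_iff_mem_zpowers.mpr
            ((Subgroup.mul_mem_iff_of_index_two hAidx).mpr (iff_of_false t.2.1 hy))
          have hti : (t : G) = x ^ i * y := by
            rw [show x ^ i = (t : G) * y from hi, mul_assoc, hy2, mul_one]
          have hmod : (t : G) = x ^ (i % 2 ^ n) * y := by
            rw [hti, ← hx, pow_mod_orderOf]
          have hev : 2 ∣ i := by
            have h := t.2.2
            rw [hti, hsqE] at h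
            have h' : 2 ^ (n - 1) * 2 ∣ 2 ^ (n - 1) * i := by
              rw [hpow, ← hx]; exact orderOf_dvd_of_pow_eq_one h
            exact Nat.dvd_of_mul_dvd_mul_left hpos h'
          have hdm : 2 ∣ i % 2 ^ n := (Nat.dvd_mod_iff (dvd_pow_self 2 (by omega))).mpr hev
          have hlt : i % 2 ^ n < 2 ^ n := Nat.mod_lt _ (by positivity)
          refine ⟨⟨i % 2 ^ n / 2, by omega⟩, Subtype.ext ?_⟩
          show x ^ (2 * (i % 2 ^ n / 2)) * y = t
          rw [Nat.mul_div_cancel' hdm, hmod]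
      rw [← Nat.card_eq_of_bijective f hf, Nat.card_fin])
  exact ⟨h1, n - 1, h2, hqd', by rw [hcard]; congr 1; omega⟩

end Cfsg.Agent.Recog.HalfP
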