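import Cfsg.Agent.S0519
import Cfsg.Agent.S0126
import Cfsg.Agent.TwoGroups.UniqueInvolution
import Cfsg.Agent.PGroup.Basic

/-!
# Irreducible representations of p-groups: imprimitivity
-/

set_option autoImplicit false

namespace Cfsg.Agent.Recog.PGroupImprim

open scoped commutatorElement
set_option linter.style.haveILetI false

variable {q : ℕ} [Fact q.Prime] {V : Type*} [AddCommGroup V] [Module (ZMod q) V] [Finite V]
  [Nontrivial V] {G : Type*} [Group G]

/-- The vectors fixed by an element. -/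
def fix (ρ : G →* (V ≃ₗ[ZMod q] V)) (g : G) : Submodule (ZMod q) V :=
  LinearMap.eqLocus (ρ g : V →ₗ[ZMod q] V) LinearMap.id

theorem mem_fix {ρ : G →* (V ≃ₗ[ZMod q] V)} {g : G} {v : V} : v ∈ fix ρ g ↔ ρ g v = v := Iff.rfl

theorem fix_pow {ρ : G →* (V ≃ₗ[ZMod q] V)} {g : G} {v : V} (h : ρ g v = v) (n : ℕ) :
    ρ (g ^ n) v = v := by
  induction n with
  | zero => simp
  | succ n ih => rw [pow_succ, map_mul, LinearEquiv.mul_apply, h, ih]

/-- A normal abelian non-cyclic subgroup. -/
theorem exists_normal_abelian_not_cyclic {G : Type*} [Group G] [Finite G] {p : ℕ} [Fact p.Prime]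
    (hG : IsPGroup p G) (hnc : ¬ IsCyclic G) (hnq : ∀ n : ℕ, ¬ Nonempty (G ≃* QuaternionGroup n))
    (hnd : ∀ n : ℕ, ¬ Nonempty (G ≃* DihedralGroup n)) (hnsd : ¬ Cfsg.IsQuasiDihedral G) :
    ∃ A : Subgroup G, A.Normal ∧ IsMulCommutative A ∧ ¬ IsCyclic A := by
  classical
  by_cases hp2 : p = 2
  · by_contra hcon
    push Not at hcon
    have hn : ∀ A : Subgroup G, A.Normal → IsMulCommutative A → IsCyclic A := fun A h1 h2 => hcon A h1 h2
    subst hp2
    by_cases hm : ∃ B : Subgroup G, IsMulCommutative B ∧ ¬ IsCyclic B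
    · rcases (S0519.result 2 hG hn hm).2 with ⟨n, h⟩ | ⟨n, -, h⟩ | h
      · exact hnq n h
      · exact hnd n h
      · exact hnsd h
    · push Not at hm
      have hnt : Nontrivial G := by
        by_contra h
        rw [not_nontrivial_iff_subsingleton] at h
        exact hnc inferInstance
      have : Nontrivial (Subgroup.center G) := hG.center_nontrivial
      obtain ⟨k, hk0, hk⟩ := (hG.to_subgroup (Subgroup.center G)).nontrivial_iff_card.mp this
      obtain ⟨z, hz⟩ := exists_prime_orderOf_dvd_card' 2 (G := Subgroup.center G)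
        (hk ▸ dvd_pow_self 2 hk0.ne')
      have hz' : orderOf (z : G) = 2 := by rw [Subgroup.orderOf_coe, hz]
      have huniq : ∀ x : G, orderOf x = 2 → x = (z : G) := by
        intro x hx
        by_contra hne
        set B := Subgroup.closure ({x, (z : G)} : Set G)
        have hBc : IsMulCommutative B := Subgroup.isMulCommutative_closure (by
          rintro a (rfl | rfl) b (rfl | rfl)
          · rfl
          · exact Subgroup.mem_center_iff.mp z.2 _
          · exact (Subgroup.mem_center_iff.mp z.2 _).symm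
          · rfl)
        have hxB : x ∈ B := Subgroup.subset_closure (by simp)
        have hzB : (z : G) ∈ B := Subgroup.subset_closure (by simp)
        have := hm B hBc
        have : Fintype B := Fintype.ofFinite B
        have h3 := IsCyclic.card_pow_eq_one_le (α := B) (n := 2) two_pos
        have hsub : ({1, ⟨x, hxB⟩, ⟨z, hzB⟩} : Finset B) ⊆
            Finset.univ.filter (fun u : B => u ^ 2 = 1) := by
          intro u hu
          refine Finset.mem_filter.mpr ⟨Finset.mem_univ _, ?_⟩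
          simp only [Finset.mem_insert, Finset.mem_singleton] at hu
          rcases hu with rfl | rfl | rfl
          · exact one_pow 2
          · exact Subtype.ext (by rw [← hx]; exact pow_orderOf_eq_one x)
          · exact Subtype.ext (by rw [← hz']; exact pow_orderOf_eq_one _)
        have hcard : ({1, ⟨x, hxB⟩, ⟨z, hzB⟩} : Finset B).card = 3 := by
          refine Finset.card_eq_three.mpr ⟨_, _, _, ?_, ?_, ?_, rfl⟩
          · intro h; rw [show x = 1 from (congrArg Subtype.val h).symm, orderOf_one] at hx; omega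
          · intro h; rw [show (z : G) = 1 from (congrArg Subtype.val h).symm, orderOf_one] at hz'; omega
          · exact fun h => hne (congrArg Subtype.val h)
        have := Finset.card_le_card hsub
        omega
      rcases Cfsg.Agent.TwoGroups.cyclic_or_quaternion_of_unique_involution hG
        (fun x y hx hy => (huniq x hx).trans (huniq y hy).symm) with h | ⟨n, -, -, h⟩
      · exact hnc h
      · exact hnq _ h
  · obtain ⟨A, hAn, hAe, hAcard⟩ := S0126.result hp2 hG hnc
    refine ⟨A, hAn, hAe.1, fun hc => ?_⟩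
    have := hc
    have : Fintype A := Fintype.ofFinite A
    have h3 := IsCyclic.card_pow_eq_one_le (α := A) (n := p) (Fact.out : p.Prime).pos
    rw [Finset.filter_true_of_mem (fun (u : A) _ => Subtype.ext (hAe.2 u u.2) : ∀ u ∈ (Finset.univ : Finset A), u ^ p = 1), Finset.card_univ,
      ← Nat.card_eq_fintype_card, hAcard] at h3
    nlinarith [(Fact.out : p.Prime).two_le]

/-- A central element `z` of order `p` and an element `a` outside `⟨z⟩` of order `p`, central
modulo `⟨z⟩`. -/
theorem exists_pair {G : Type*} [Group G] [Finite G] {p : ℕ} [Fact p.Prime]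
    (hG : IsPGroup p G) {A : Subgroup G} (hAn : A.Normal) (hAc : IsMulCommutative A)
    (hA : ¬ IsCyclic A) :
    ∃ z a : G, z ∈ Subgroup.center G ∧ orderOf z = p ∧ orderOf a = p ∧ a ∉ Subgroup.zpowers z ∧
      ∀ g : G, ⁅g, a⁆ ∈ Subgroup.zpowers z := by
  classical
  have hpp : p.Prime := Fact.out
  have hcomm : ∀ a ∈ A, ∀ b ∈ A, Commute a b := fun a ha b hb =>
    congrArg Subtype.val (hAc.is_comm.comm ⟨a, ha⟩ ⟨b, hb⟩)
  let Ω : Subgroup G :=
    { carrier := {x | x ∈ A ∧ x ^ p = 1}
      one_mem' := ⟨one_mem _, one_pow p⟩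
      mul_mem' := fun {x y} hx hy => ⟨mul_mem hx.1 hy.1, by
        rw [(hcomm x hx.1 y hy.1).mul_pow, hx.2, hy.2, one_mul]⟩
      inv_mem' := fun {x} hx => ⟨inv_mem hx.1, by rw [inv_pow, hx.2, inv_one]⟩ }
  have hΩn : Ω.Normal := ⟨fun x hx g => ⟨hAn.conj_mem x hx.1 g, by
    rw [conj_pow, hx.2, mul_one, mul_inv_cancel]⟩⟩
  have hAne : A ≠ ⊥ := fun h => hA (h ▸ inferInstance)
  have := hAn
  have hne := Cfsg.Agent.PGroup.inf_center_ne_bot hG A hAne
  obtain ⟨k, hk0, hk⟩ := (hG.to_subgroup (A ⊓ Subgroup.center G)).nontrivial_iff_card.mp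
    ((Subgroup.nontrivial_iff_ne_bot _).mpr hne)
  obtain ⟨⟨z, hzA, hzc⟩, hzo⟩ := exists_prime_orderOf_dvd_card' p
    (G := (A ⊓ Subgroup.center G : Subgroup G)) (hk ▸ dvd_pow_self p hk0.ne')
  replace hzo : orderOf z = p := (Subgroup.orderOf_coe _).trans hzo
  have hzn : (Subgroup.zpowers z).Normal := ⟨fun x hx g => by
    obtain ⟨i, rfl⟩ := Subgroup.mem_zpowers_iff.mp hx
    rw [Subgroup.mem_center_iff.mp ((Subgroup.center G).zpow_mem hzc i) g, mul_inv_cancel_right]
    exact Subgroup.zpow_mem _ (Subgroup.mem_zpowers z) i⟩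
  have hex : ∃ b ∈ Ω, b ∉ Subgroup.zpowers z := by
    by_contra hcon
    push Not at hcon
    refine hA (Cfsg.Agent.PGroup.isCyclic_of_card_omega_le (hG.to_subgroup A) hAc ?_)
    calc Nat.card {x : A // x ^ p = 1} ≤ Nat.card (Subgroup.zpowers z) := by
          refine Nat.card_le_card_of_injective (fun x => ⟨(x.1 : G), hcon _ ⟨x.1.2, ?_⟩⟩) ?_
          · exact congrArg Subtype.val x.2
          · intro x y h
            exact Subtype.ext (Subtype.ext (congrArg (fun u : Subgroup.zpowers z => (u : G)) h))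
      _ = p := by rw [Nat.card_zpowers, hzo]
  obtain ⟨b, hbΩ, hbz⟩ := hex
  let π := QuotientGroup.mk' (Subgroup.zpowers z)
  have hNne : Ω.map π ≠ ⊥ := by
    intro h
    apply hbz
    rw [← QuotientGroup.eq_one_iff]
    exact Subgroup.mem_bot.mp (h ▸ (⟨b, hbΩ, rfl⟩ : π b ∈ Ω.map π))
  have hNn : (Ω.map π).Normal := hΩn.map π (QuotientGroup.mk'_surjective _)
  obtain ⟨y, hy, hy1⟩ := (Subgroup.bot_or_exists_ne_one _).resolve_left
    (Cfsg.Agent.PGroup.inf_center_ne_bot (hG.to_quotient (Subgroup.zpowers z)) (Ω.map π) hNne)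
  obtain ⟨⟨a, haΩ, rfl⟩, hyc⟩ := hy
  have haz : a ∉ Subgroup.zpowers z := fun h => hy1 ((QuotientGroup.eq_one_iff a).mpr h)
  refine ⟨z, a, hzc, hzo, orderOf_eq_prime haΩ.2 (fun h => haz (h ▸ one_mem _)), haz, fun g => ?_⟩
  rw [← QuotientGroup.eq_one_iff]
  show π ⁅g, a⁆ = 1
  rw [map_commutatorElement, commutatorElement_eq_one_iff_mul_comm]
  exact Subgroup.mem_center_iff.mp hyc (π g)

/-- Irreducible `p`-groups other than cyclic, quaternion, dihedral and semidihedral ones are
imprimitive with `p` blocks. -/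
theorem exists_blocks [Finite G] (p : ℕ) [Fact p.Prime] (hG : IsPGroup p G)
    (ρ : G →* (V ≃ₗ[ZMod q] V)) (hρ : Function.Injective ρ)
    (hirr : ∀ W : Submodule (ZMod q) V, (∀ g : G, ∀ w ∈ W, ρ g w ∈ W) → W = ⊥ ∨ W = ⊤)
    (hnc : ¬ IsCyclic G) (hnq : ∀ n : ℕ, ¬ Nonempty (G ≃* QuaternionGroup n))
    (hnd : ∀ n : ℕ, ¬ Nonempty (G ≃* DihedralGroup n)) (hnsd : ¬ Cfsg.IsQuasiDihedral G) :
    ∃ (H : Subgroup G) (W : Fin p → Submodule (ZMod q) V), H.index = p ∧
      iSup W = ⊤ ∧ iSupIndep W ∧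
      (∀ h ∈ H, ∀ i, ∀ w ∈ W i, ρ h w ∈ W i) ∧
      (∀ i, ∃ h ∈ H, h ≠ 1 ∧ ∀ w ∈ W i, ρ h w = w) ∧
      ∀ g : G, g ∉ H → ∃ σ : Equiv.Perm (Fin p), orderOf σ = p ∧ ∀ i, (W i).map (ρ g : V →ₗ[ZMod q] V) = W (σ i) := by
  classical
  have hpp : p.Prime := Fact.out
  obtain ⟨A, hAn, hAc, hA⟩ := exists_normal_abelian_not_cyclic hG hnc hnq hnd hnsd
  obtain ⟨z, a, hzc, hzo, hao, haz, hga⟩ := exists_pair hG hAn hAc hA
  have hzp : z ^ p = 1 := hzo ▸ pow_orderOf_eq_one z
  have hap : a ^ p = 1 := hao ▸ pow_orderOf_eq_one a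
  have hza : ∀ i : ℕ, Commute a (z ^ i) := fun i => Subgroup.mem_center_iff.mp (pow_mem hzc i) a
  -- central elements other than one fix only zero
  have hfix0 : ∀ c ∈ Subgroup.center G, c ≠ 1 → fix ρ c = ⊥ := by
    intro c hc hc1
    refine (hirr _ fun g w hw => ?_).resolve_right fun h => hc1 (hρ (LinearEquiv.ext fun v => ?_))
    · rw [mem_fix] at hw ⊢
      rw [← LinearEquiv.mul_apply, ← map_mul, ← Subgroup.mem_center_iff.mp hc g, map_mul,
        LinearEquiv.mul_apply, hw]
    · rw [map_one]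
      exact mem_fix.mp (h ▸ Submodule.mem_top (x := v))
  -- sums over a cyclic group of order `p`
  let S : G → (V →ₗ[ZMod q] V) := fun x => ∑ j ∈ Finset.range p, (ρ (x ^ j) : V →ₗ[ZMod q] V)
  have hS : ∀ x v, S x v = ∑ j ∈ Finset.range p, ρ (x ^ j) v := fun x v => by
    simp [S]
  have hSfix : ∀ x, x ^ p = 1 → ∀ v, ρ x (S x v) = S x v := by
    intro x hx v
    rw [hS, map_sum]
    have h1 := Finset.sum_range_succ' (fun j => ρ (x ^ j) v) p
    rw [Finset.sum_range_succ, hx, pow_zero] at h1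
    have h2 := add_right_cancel h1
    rw [h2]
    refine Finset.sum_congr rfl fun j _ => ?_
    rw [pow_succ', map_mul, LinearEquiv.mul_apply]
  -- the characteristic of the field is not `p`
  have hpq : ((p : ℕ) : ZMod q) ≠ 0 := by
    rw [Ne, ZMod.natCast_eq_zero_iff]
    intro hd
    have hqp : q = p := (Nat.prime_dvd_prime_iff_eq Fact.out hpp).mp hd
    have hd' : p ∣ Nat.card V := by
      rw [Module.natCard_eq_pow_finrank (K := ZMod q) (V := V), Nat.card_zmod]
      have : 0 < Module.finrank (ZMod q) V := Module.finrank_pos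
      exact hqp.symm.dvd.trans (dvd_pow_self q this.ne')
    let act : MulAction (Subgroup.zpowers z) V :=
      MulAction.compHom V (ρ.comp (Subgroup.zpowers z).subtype)
    obtain ⟨v, hv, hne⟩ := (hG.to_subgroup (Subgroup.zpowers z)).exists_fixed_point_of_prime_dvd_card_of_fixed_point V hd'
      (a := 0) (MulAction.mem_fixedPoints.mpr fun g => map_zero (ρ (g : G)))
    have hmem : v ∈ fix ρ z := MulAction.mem_fixedPoints.mp hv ⟨z, Subgroup.mem_zpowers z⟩
    rw [hfix0 z hzc (fun h => by rw [h, orderOf_one] at hzo; exact hpp.one_lt.ne hzo)] at hmem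
    exact hne ((Submodule.mem_bot _).mp hmem).symm
  let b : Fin p → G := fun i => a * z ^ (i : ℕ)
  have hbp : ∀ i, b i ^ p = 1 := fun i => by
    rw [show b i = a * z ^ (i : ℕ) from rfl, (hza _).mul_pow, hap, ← pow_mul, mul_comm, pow_mul, hzp,
      one_pow, one_mul]
  have hb1 : ∀ i, b i ≠ 1 := fun i h => haz (by
    rw [eq_inv_of_mul_eq_one_left (show a * z ^ (i : ℕ) = 1 from h)]
    exact inv_mem (pow_mem (Subgroup.mem_zpowers z) _))
  set W : Fin p → Submodule (ZMod q) V := fun i => fix ρ (b i)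
  have hsum : ∀ v, ∑ i : Fin p, S (b i) v = (p : ZMod q) • v := by
    intro v
    simp_rw [hS]
    rw [Finset.sum_comm, Finset.sum_eq_single 0]
    · simp [Nat.cast_smul_eq_nsmul]
    · intro j hj hj0
      have hzj : z ^ j ≠ 1 := fun h => by
        have h' := orderOf_dvd_of_pow_eq_one h
        rw [hzo] at h'
        exact absurd (Nat.le_of_dvd (by omega) h') (by simpa using hj)
      have hterm : ∀ i : Fin p, ρ (b i ^ j) v = ρ ((z ^ j) ^ (i : ℕ)) (ρ (a ^ j) v) := fun i => by
        rw [show b i ^ j = (z ^ j) ^ (i : ℕ) * a ^ j by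
          rw [show b i = a * z ^ (i : ℕ) from rfl, (hza _).mul_pow, ← pow_mul, mul_comm (i : ℕ),
            pow_mul, ← (show Commute (a ^ j) ((z ^ j) ^ (i : ℕ)) from
              ((Subgroup.mem_center_iff.mp (pow_mem (pow_mem hzc j) _) (a ^ j)))).eq]]
        rw [map_mul, LinearEquiv.mul_apply]
      rw [Finset.sum_congr rfl (fun i _ => hterm i),
        Fin.sum_univ_eq_sum_range (fun i => ρ ((z ^ j) ^ i) (ρ (a ^ j) v)), ← hS]
      have hmem : S (z ^ j) (ρ (a ^ j) v) ∈ fix ρ (z ^ j) :=
        mem_fix.mpr (hSfix (z ^ j) (by rw [← pow_mul, mul_comm, pow_mul, hzp, one_pow]) _)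
      rw [hfix0 _ (pow_mem hzc j) hzj] at hmem
      exact (Submodule.mem_bot _).mp hmem
    · intro h; exact absurd (Finset.mem_range.mpr hpp.pos) h
  have hSW : ∀ i v, S (b i) v ∈ W i := fun i v => mem_fix.mpr (hSfix _ (hbp i) v)
  have htop : iSup W = ⊤ := by
    refine eq_top_iff.mpr fun v _ => ?_
    have h := Submodule.smul_mem (iSup W) ((p : ZMod q))⁻¹
      (Submodule.sum_mem (iSup W) (fun i _ => Submodule.mem_iSup_of_mem i (hSW i v)) (t := Finset.univ))
    rwa [hsum, smul_smul, inv_mul_cancel₀ hpq, one_smul] at h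
  have hbb : ∀ i j, Commute (b i) (b j) := fun i j =>
    ((Commute.refl a).mul_right (hza _)).mul_left (((hza (i : ℕ)).symm).mul_right (Commute.pow_pow_self z _ _))
  have hind : iSupIndep W := by
    rw [iSupIndep_def]
    intro j
    have hker : ⨆ (k) (_ : k ≠ j), W k ≤ LinearMap.ker (S (b j)) := by
      refine iSup₂_le fun k hk w hw => LinearMap.mem_ker.mpr ?_
      rw [mem_fix] at hw
      have h1 : ρ (b j) (S (b j) w) = S (b j) w := hSfix _ (hbp j) w
      have h2 : ρ (b k) (S (b j) w) = S (b j) w := by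
        rw [hS, map_sum]
        refine Finset.sum_congr rfl fun i _ => ?_
        rw [← LinearEquiv.mul_apply, ← map_mul, ((hbb k j).pow_right i).eq, map_mul,
          LinearEquiv.mul_apply, hw]
      set u := S (b j) w
      -- fixed by both, hence by a non-trivial central element
      obtain ⟨c, hc, hc1, hcu⟩ : ∃ c ∈ Subgroup.center G, c ≠ 1 ∧ ρ c u = u := by
        refine ⟨(b j)⁻¹ * b k, ?_, ?_, ?_⟩
        · rw [show (b j)⁻¹ * b k = (z ^ (j : ℕ))⁻¹ * z ^ (k : ℕ) by simp [b, mul_assoc]]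
          exact mul_mem (inv_mem (pow_mem hzc _)) (pow_mem hzc _)
        · intro h
          rw [inv_mul_eq_one] at h
          apply hk
          have h' : z ^ (k : ℕ) = z ^ (j : ℕ) := mul_left_cancel (h.symm : a * z ^ (k : ℕ) = a * z ^ (j : ℕ))
          exact Fin.ext (pow_injOn_Iio_orderOf (by rw [hzo]; exact k.2) (by rw [hzo]; exact j.2) h')
        · rw [map_mul, LinearEquiv.mul_apply, h2]
          nth_rewrite 1 [← h1]
          rw [← LinearEquiv.mul_apply, ← map_mul, inv_mul_cancel, map_one]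
          rfl
      have hmem : u ∈ fix ρ c := mem_fix.mpr hcu
      rw [hfix0 c hc hc1] at hmem
      exact (Submodule.mem_bot _).mp hmem
    rw [Submodule.disjoint_def]
    intro w hw hw'
    have h0 : S (b j) w = 0 := LinearMap.mem_ker.mp (hker hw')
    rw [hS, Finset.sum_congr rfl (fun i _ => fix_pow (mem_fix.mp hw) i), Finset.sum_const,
      Finset.card_range, ← Nat.cast_smul_eq_nsmul (ZMod q), smul_eq_zero] at h0
    exact h0.resolve_left hpq
  -- the subgroup
  let χ : G →* Subgroup.zpowers z :=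
    { toFun := fun g => ⟨⁅g, a⁆, hga g⟩
      map_one' := Subtype.ext (by simp)
      map_mul' := fun g h => Subtype.ext (by
        show ⁅g * h, a⁆ = ⁅g, a⁆ * ⁅h, a⁆
        have hc : ⁅h, a⁆ ∈ Subgroup.center G := Subgroup.zpowers_le.mpr hzc (hga h)
        calc ⁅g * h, a⁆ = g * ⁅h, a⁆ * g⁻¹ * ⁅g, a⁆ := by simp [commutatorElement_def, mul_assoc]
          _ = ⁅h, a⁆ * ⁅g, a⁆ := by rw [Subgroup.mem_center_iff.mp hc g, mul_inv_cancel_right]
          _ = ⁅g, a⁆ * ⁅h, a⁆ := (Subgroup.mem_center_iff.mp hc _).symm) }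
  -- `a` is not central
  have hanc : a ∉ Subgroup.center G := by
    intro hac
    obtain ⟨v, hv⟩ := exists_ne (0 : V)
    have h := hsum v
    rw [Finset.sum_eq_zero (fun i _ => ?_)] at h
    · exact hv ((smul_eq_zero.mp h.symm).resolve_left hpq)
    · have hmem := hSW i v
      rw [show W i = ⊥ from hfix0 _ (mul_mem hac (pow_mem hzc _)) (hb1 i)] at hmem
      exact (Submodule.mem_bot _).mp hmem
  have hidx : χ.ker.index = p := by
    rw [Subgroup.index_ker]
    have hd : Nat.card χ.range ∣ p := by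
      have := Subgroup.card_subgroup_dvd_card χ.range
      rwa [Nat.card_zpowers, hzo] at this
    refine ((Nat.dvd_prime hpp).mp hd).resolve_left fun h => hanc ?_
    refine Subgroup.mem_center_iff.mpr fun g => commutatorElement_eq_one_iff_mul_comm.mp ?_
    have hb : χ g ∈ (⊥ : Subgroup (Subgroup.zpowers z)) := by
      rw [← Subgroup.eq_bot_of_card_eq χ.range h]
      exact ⟨g, rfl⟩
    rw [Subgroup.mem_bot] at hb
    exact congrArg Subtype.val hb
  have hHcomm : ∀ h ∈ χ.ker, ∀ i, Commute h (b i) := fun h hh i =>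
    Commute.mul_right (commutatorElement_eq_one_iff_mul_comm.mp (congrArg Subtype.val (MonoidHom.mem_ker.mp hh)))
      (Subgroup.mem_center_iff.mp (pow_mem hzc _) h)
  refine ⟨χ.ker, W, hidx, htop, hind, fun h hh i w hw => ?_, fun i => ?_, fun g hg => ?_⟩
  · rw [mem_fix] at hw ⊢
    rw [← LinearEquiv.mul_apply, ← map_mul, ← (hHcomm h hh i).eq, map_mul, LinearEquiv.mul_apply, hw]
  · refine ⟨b i, ?_, hb1 i, fun w hw => mem_fix.mp hw⟩
    rw [MonoidHom.mem_ker]
    refine Subtype.ext (commutatorElement_eq_one_iff_mul_comm.mpr ?_)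
    exact ((Commute.refl a).mul_left (hza _).symm).eq
  · have hzfin : IsOfFinOrder z := isOfFinOrder_of_finite z
    obtain ⟨k, hkp, hk⟩ : ∃ k, k < p ∧ z ^ k = ⁅g, a⁆ := by
      obtain ⟨k, hk⟩ := (hzfin.mem_powers_iff_mem_zpowers).mpr (hga g)
      refine ⟨k % p, Nat.mod_lt _ hpp.pos, ?_⟩
      rw [← hk]
      exact (pow_eq_pow_mod k hzp).symm
    have hk0 : k ≠ 0 := by
      rintro rfl
      exact hg (MonoidHom.mem_ker.mpr (Subtype.ext (by rw [pow_zero] at hk; exact hk.symm)))
    have : NeZero p := ⟨hpp.ne_zero⟩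
    set k' : Fin p := ⟨k, hkp⟩
    refine ⟨Equiv.addRight k', ?_, fun i => ?_⟩
    · have hk'0 : k' ≠ 0 := fun h => hk0 (congrArg Fin.val h)
      have hpw : ∀ n : ℕ, (Equiv.addRight k') ^ n = Equiv.addRight (n • k') := by
        intro n
        induction n with
        | zero => ext x; simp
        | succ n ih => ext x; simp [pow_succ', ih, succ_nsmul, add_assoc]
      refine orderOf_eq_prime ?_ ?_
      · rw [hpw]
        have : p • k' = 0 := by
          have h := card_nsmul_eq_zero' (x := k')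
          rwa [Nat.card_eq_fintype_card, Fintype.card_fin] at h
        rw [this]; ext x; simp
      · intro h
        have := DFunLike.congr_fun h 0
        simp at this
        exact hk'0 this
    · have hconj : b (Equiv.addRight k' i) = g * b i * g⁻¹ := by
        have hval : ((i + k' : Fin p) : ℕ) = ((i : ℕ) + k) % p := Fin.val_add _ _
        show a * z ^ ((i + k' : Fin p) : ℕ) = g * (a * z ^ (i : ℕ)) * g⁻¹
        have e : g * (a * z ^ (i : ℕ)) * g⁻¹ = (g * a * g⁻¹) * (g * z ^ (i : ℕ) * g⁻¹) := by group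
        rw [e, Subgroup.mem_center_iff.mp (pow_mem hzc _) g, mul_inv_cancel_right,
          show g * a * g⁻¹ = ⁅g, a⁆ * a by simp [commutatorElement_def], ← hk, hval,
          ← pow_eq_pow_mod _ hzp, pow_add, (hza k).symm.eq, mul_assoc]
        exact congrArg (a * ·) (Commute.pow_pow_self z _ _).eq
      ext v
      rw [Submodule.mem_map]
      constructor
      · rintro ⟨w, hw, rfl⟩
        rw [mem_fix] at hw ⊢
        rw [hconj]
        show ρ (g * b i * g⁻¹) (ρ g w) = ρ g w
        rw [← LinearEquiv.mul_apply, ← map_mul, inv_mul_cancel_right, map_mul, LinearEquiv.mul_apply, hw]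
      · intro hv
        rw [mem_fix, hconj] at hv
        refine ⟨ρ g⁻¹ v, mem_fix.mpr ?_, ?_⟩
        · rw [← LinearEquiv.mul_apply, ← map_mul]
          have e : b i * g⁻¹ = g⁻¹ * (g * b i * g⁻¹) := by group
          rw [e, map_mul, LinearEquiv.mul_apply, hv]
        · show ρ g (ρ g⁻¹ v) = v
          rw [← LinearEquiv.mul_apply, ← map_mul, mul_inv_cancel, map_one]
          rfl

end Cfsg.Agent.Recog.PGroupImprim
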