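import Cfsg.Agent.Recog.HalfTransitive
import Cfsg.Agent.Recog.PGroupImprimitive
import Cfsg.Agent.S3370

/-!
# Half-transitive linear p-groups
-/

set_option autoImplicit false

namespace Cfsg.Agent.Recog.HalfP

set_option linter.style.haveILetI false

variable {q : ℕ} [Fact q.Prime] {V : Type*} [AddCommGroup V] [Module (ZMod q) V] [Finite V]
  {G : Type*} [Group G]

/-- The stabiliser of a vector. -/
def stab (ρ : G →* (V ≃ₗ[ZMod q] V)) (v : V) : Subgroup G :=
  (MulAction.stabilizer (V ≃ₗ[ZMod q] V) v).comap ρ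

theorem mem_stab {ρ : G →* (V ≃ₗ[ZMod q] V)} {v : V} {g : G} : g ∈ stab ρ v ↔ ρ g v = v := Iff.rfl

variable {ρ : G →* (V ≃ₗ[ZMod q] V)}

theorem card_orbit_mul [Finite G] (v : V) :
    Nat.card {u : V | ∃ g : G, ρ g v = u} * Nat.card (stab ρ v) = Nat.card G := by
  let act : MulAction G V := MulAction.compHom V ρ
  have h1 : {u : V | ∃ g : G, ρ g v = u} = MulAction.orbit G v := rfl
  have h2 : stab ρ v = MulAction.stabilizer G v := rfl
  rw [h1, h2, Nat.card_coe_set_eq, ← MulAction.index_stabilizer, mul_comm, Subgroup.card_mul_index]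

/-- Two commuting elements of order `p` acting without fixed vectors: the second is a power of
the first. -/
theorem mem_zpowers_of_fixedPointFree [Nontrivial V] [Finite G] {p : ℕ} [Fact p.Prime]
    (hpq : ((p : ℕ) : ZMod q) ≠ 0) {z a : G} (hza : Commute z a) (hz : orderOf z = p)
    (ha : orderOf a = p) (hfree : ∀ v : V, v ≠ 0 → ∀ g : G, ρ g v = v → g = 1) :
    a ∈ Subgroup.zpowers z := by
  classical
  by_contra hnot
  have hpp : p.Prime := Fact.out
  have hzp : z ^ p = 1 := hz ▸ pow_orderOf_eq_one z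
  have hap : a ^ p = 1 := ha ▸ pow_orderOf_eq_one a
  have hS : ∀ x : G, x ≠ 1 → x ^ p = 1 → ∀ v, (∑ j ∈ Finset.range p, ρ (x ^ j) v) = 0 := by
    intro x hx hxp v
    by_contra hne
    refine hx (hfree _ hne x ?_)
    have h1 := Finset.sum_range_succ' (fun j => ρ (x ^ j) v) p
    rw [Finset.sum_range_succ, hxp, pow_zero] at h1
    rw [map_sum]
    conv_rhs => rw [add_right_cancel h1]
    refine Finset.sum_congr rfl fun j _ => ?_
    rw [pow_succ', map_mul, LinearEquiv.mul_apply]
  obtain ⟨v, hv⟩ := exists_ne (0 : V)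
  have hb1 : ∀ i, a * z ^ i ≠ 1 := fun i h => hnot (by
    rw [eq_inv_of_mul_eq_one_left h]
    exact inv_mem (pow_mem (Subgroup.mem_zpowers z) i))
  have h0 : ∑ i ∈ Finset.range p, ∑ j ∈ Finset.range p, ρ ((a * z ^ i) ^ j) v = 0 :=
    Finset.sum_eq_zero fun i _ => hS _ (hb1 i) (by
      rw [(hza.symm.pow_right i).mul_pow, hap, ← pow_mul, mul_comm, pow_mul, hzp, one_pow, one_mul]) v
  rw [Finset.sum_comm, Finset.sum_eq_single 0] at h0
  · simp only [pow_zero, map_one, Finset.sum_const, Finset.card_range] at h0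
    rw [← Nat.cast_smul_eq_nsmul (ZMod q), LinearEquiv.coe_one, id, smul_eq_zero] at h0
    exact hv (h0.resolve_left hpq)
  · intro j hj hj0
    have hzj : z ^ j ≠ 1 := fun h => by
      have h' := orderOf_dvd_of_pow_eq_one h
      rw [hz] at h'
      exact absurd (Nat.le_of_dvd (by omega) h') (by simpa using hj)
    rw [Finset.sum_congr rfl (fun i _ => ?_)]
    · exact hS (z ^ j) hzj (by rw [← pow_mul, mul_comm, pow_mul, hzp, one_pow]) (ρ (a ^ j) v)
    · rw [← LinearEquiv.mul_apply, ← map_mul, (hza.symm.pow_right i).mul_pow, ← pow_mul, mul_comm i j,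
        pow_mul, ((hza.symm.pow_pow j j).pow_right i).eq]
  · intro h; exact absurd (Finset.mem_range.mpr hpp.pos) h

/-- A fixed-point-free linear `p`-group is cyclic or generalised quaternion. -/
theorem cyclic_or_quaternion_of_free [Nontrivial V] [Finite G] {p : ℕ} [Fact p.Prime]
    (hG : IsPGroup p G) (hpq : ((p : ℕ) : ZMod q) ≠ 0) (hρ : Function.Injective ρ)
    (hfree : ∀ v : V, v ≠ 0 → ∀ g : G, ρ g v = v → g = 1) :
    IsCyclic G ∨ ∃ n : ℕ, Nonempty (G ≃* QuaternionGroup n) := by
  classical
  by_cases hp2 : p = 2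
  · subst hp2
    have key : ∀ x : G, orderOf x = 2 → ∀ v : V, ρ x v = -v := by
      intro x hx v
      by_contra hne
      have h2 : ρ x (v + ρ x v) = v + ρ x v := by
        rw [map_add, ← LinearEquiv.mul_apply (ρ x) (ρ x), ← map_mul, ← sq, ← hx, pow_orderOf_eq_one,
          map_one, LinearEquiv.coe_one, id, add_comm]
      have h3 : v + ρ x v ≠ 0 := fun h => hne (eq_neg_of_add_eq_zero_right h)
      rw [hfree _ h3 x h2, orderOf_one] at hx
      norm_num at hx
    rcases Cfsg.Agent.TwoGroups.cyclic_or_quaternion_of_unique_involution hG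
      (fun x y hx hy => hρ (LinearEquiv.ext fun v => (key x hx v).trans (key y hy v).symm))
      with h | ⟨n, -, -, h⟩
    · exact Or.inl h
    · exact Or.inr ⟨_, h⟩
  · refine Or.inl (by_contra fun hnc => ?_)
    obtain ⟨A, -, hAe, hAcard⟩ := S0126.result hp2 hG hnc
    have hpp : p.Prime := Fact.out
    have hA1 : A ≠ ⊥ := fun h => by
      rw [h, Subgroup.card_bot] at hAcard
      exact (Nat.one_lt_pow two_ne_zero hpp.one_lt).ne hAcard
    obtain ⟨z, hz, hz1⟩ := (Subgroup.bot_or_exists_ne_one A).resolve_left hA1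
    have hlt : Subgroup.zpowers z < A := by
      refine lt_of_le_of_ne (Subgroup.zpowers_le.mpr hz) fun h => ?_
      rw [← h, Nat.card_zpowers, orderOf_eq_prime (hAe.2 z hz) hz1] at hAcard
      nlinarith [hpp.two_le]
    obtain ⟨a, ha, haz⟩ := SetLike.exists_of_lt hlt
    exact haz (mem_zpowers_of_fixedPointFree hpq
      (show Commute z a from congrArg Subtype.val (hAe.1.is_comm.comm ⟨z, hz⟩ ⟨a, ha⟩))
      (orderOf_eq_prime (hAe.2 z hz) hz1)
      (orderOf_eq_prime (hAe.2 a ha) (fun h => haz (h ▸ one_mem _))) hfree)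

section
variable [Nontrivial V] [Finite G] (hρ : Function.Injective ρ)
  (hhalf : ∀ v w : V, v ≠ 0 → w ≠ 0 → Nat.card {u : V | ∃ g : G, ρ g v = u} = Nat.card {u : V | ∃ g : G, ρ g w = u})

include hhalf in
omit [Nontrivial V] in
theorem card_stab_eq {v w : V} (hv : v ≠ 0) (hw : w ≠ 0) :
    Nat.card (stab ρ v) = Nat.card (stab ρ w) := by
  have h1 := card_orbit_mul (ρ := ρ) v
  have h2 := card_orbit_mul (ρ := ρ) w
  rw [← hhalf v w hv hw] at h2
  refine Nat.eq_of_mul_eq_mul_left ?_ (h1.trans h2.symm)
  have : Nonempty {u : V | ∃ g : G, ρ g v = u} := ⟨⟨v, 1, by simp⟩⟩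
  exact Nat.card_pos

include hhalf in
omit [Nontrivial V] in
theorem stab_eq_of_le {v w : V} (hv : v ≠ 0) (hw : w ≠ 0) (h : stab ρ v ≤ stab ρ w) :
    stab ρ v = stab ρ w :=
  Subgroup.eq_of_le_of_card_ge h (card_stab_eq hhalf hw hv).le

variable (hex : ∃ v : V, v ≠ 0 ∧ stab ρ v ≠ ⊥)

include hρ hex in
omit [Nontrivial V] in
/-- No non-identity element fixes all non-zero vectors. -/
theorem not_all_le {K : Subgroup G} (hall : ∀ v : V, v ≠ 0 → K ≤ stab ρ v) : K = ⊥ := by
  rw [Subgroup.eq_bot_iff_forall]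
  intro g hg
  refine hρ (LinearEquiv.ext fun v => ?_)
  rw [map_one]
  show ρ g v = v
  by_cases hv : v = 0
  · rw [hv, map_zero]
  · exact hall v hv hg

include hρ hhalf hex in
theorem false_of_all_eq {K : Subgroup G} (hall : ∀ v : V, v ≠ 0 → stab ρ v = K) : False := by
  obtain ⟨v, hv, hne⟩ := hex
  exact hne ((hall v hv).trans (not_all_le hρ ⟨v, hv, hne⟩ fun w hw => (hall w hw).ge))

include hρ hhalf hex in
/-- Non-semiregular half-transitive linear groups are irreducible. -/
theorem irreducible : ∀ W : Submodule (ZMod q) V, (∀ g : G, ∀ w ∈ W, ρ g w ∈ W) → W = ⊥ ∨ W = ⊤ := by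
  intro W hW
  obtain ⟨v₀, hv₀, hne⟩ := hex
  let act : MulDistribMulAction G (Multiplicative V) :=
    { smul := fun g x => Multiplicative.ofAdd (ρ g (Multiplicative.toAdd x))
      one_smul := fun x => by
        show Multiplicative.ofAdd (ρ (1 : G) (Multiplicative.toAdd x)) = x
        rw [map_one]; rfl
      mul_smul := fun g h x => by
        show Multiplicative.ofAdd (ρ (g * h) (Multiplicative.toAdd x)) =
          Multiplicative.ofAdd (ρ g (ρ h (Multiplicative.toAdd x)))
        rw [map_mul]; rfl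
      smul_mul := fun g x y => by
        show Multiplicative.ofAdd (ρ g (Multiplicative.toAdd x + Multiplicative.toAdd y)) = _
        rw [map_add]; rfl
      smul_one := fun g => by
        show Multiplicative.ofAdd (ρ g (0 : V)) = 1
        rw [map_zero]; rfl }
  have hk : HalfTrans.IsHalf G (Multiplicative V) (Nat.card {u : V | ∃ g : G, ρ g v₀ = u}) := by
    intro n hn
    rw [← hhalf (Multiplicative.toAdd n) v₀ (fun h => hn (congrArg Multiplicative.ofAdd h)) hv₀]
    refine Nat.card_congr
      { toFun := fun u => ⟨Multiplicative.toAdd u.1, u.2.imp fun g hg => congrArg Multiplicative.toAdd hg⟩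
        invFun := fun u => ⟨Multiplicative.ofAdd u.1, u.2.imp fun g hg => congrArg Multiplicative.ofAdd hg⟩
        left_inv := fun u => rfl
        right_inv := fun u => rfl }
  have hfaith : ∀ g : G, (∀ n : Multiplicative V, g • n = n) → g = 1 := fun g hg =>
    hρ (LinearEquiv.ext fun v => by
      rw [map_one]; exact congrArg Multiplicative.toAdd (hg (Multiplicative.ofAdd v)))
  have hex' : ∃ n : Multiplicative V, n ≠ 1 ∧ MulAction.stabilizer G n ≠ ⊥ := by
    refine ⟨Multiplicative.ofAdd v₀, fun h => hv₀ (congrArg Multiplicative.toAdd h), fun h => hne ?_⟩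
    rw [Subgroup.eq_bot_iff_forall] at h ⊢
    exact fun g hg => h g (MulAction.mem_stabilizer_iff.mpr (congrArg Multiplicative.ofAdd (mem_stab.mp hg)))
  rcases HalfTrans.invariant_trivial hk hfaith hex' (M := AddSubgroup.toSubgroup W.toAddSubgroup)
    (fun g m hm => hW g _ hm) with h | h
  · left
    rw [Submodule.eq_bot_iff]
    intro w hw
    exact congrArg Multiplicative.toAdd (Subgroup.mem_bot.mp
      (h ▸ (show Multiplicative.ofAdd w ∈ AddSubgroup.toSubgroup W.toAddSubgroup from hw)))
  · right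
    exact Submodule.eq_top_iff'.mpr fun w => h.ge (Subgroup.mem_top (Multiplicative.ofAdd w))

include hρ hhalf hex in
/-- Central elements other than one fix no non-zero vector. -/
theorem central_free {c : G} (hc : c ∈ Subgroup.center G) (hc1 : c ≠ 1) :
    ∀ v : V, v ≠ 0 → ρ c v ≠ v := by
  intro v hv hcv
  rcases irreducible hρ hhalf hex (PGroupImprim.fix ρ c) (fun g w hw => by
    rw [PGroupImprim.mem_fix] at hw ⊢
    rw [← LinearEquiv.mul_apply, ← map_mul, ← Subgroup.mem_center_iff.mp hc g, map_mul,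
      LinearEquiv.mul_apply, hw]) with h | h
  · exact hv ((Submodule.mem_bot _).mp (h ▸ (PGroupImprim.mem_fix.mpr hcv : v ∈ PGroupImprim.fix ρ c)))
  · exact hc1 (hρ (LinearEquiv.ext fun w => by
      rw [map_one]; exact PGroupImprim.mem_fix.mp (h ▸ Submodule.mem_top (x := w))))

include hρ hhalf hex in
/-- Not abelian, not quaternion. -/
theorem not_cyclic_quaternion {p : ℕ} [Fact p.Prime] (hG : IsPGroup p G) :
    (¬ ∀ a b : G, a * b = b * a) ∧ ¬ IsCyclic G ∧ ∀ n : ℕ, ¬ Nonempty (G ≃* QuaternionGroup n) := by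
  obtain ⟨v, hv, hne⟩ := hex
  obtain ⟨g, hg, hg1⟩ := (Subgroup.bot_or_exists_ne_one _).resolve_left hne
  have hab : ¬ ∀ a b : G, a * b = b * a := fun h =>
    central_free hρ hhalf ⟨v, hv, hne⟩ (Subgroup.mem_center_iff.mpr fun b => h b g) hg1 v hv hg
  refine ⟨hab, fun hc => hab ?_, ?_⟩
  · have := hc
    exact fun a b => mul_comm' a b
  · rintro n ⟨e⟩
    have : NeZero n := ⟨by
      rintro rfl
      have : Finite (QuaternionGroup 0) := Finite.of_equiv G e.toEquiv
      have : Finite ℤ := Finite.of_injective (fun z : ℤ => (QuaternionGroup.a z : QuaternionGroup 0))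
        (fun _ _ h => QuaternionGroup.a.inj h)
      exact not_finite ℤ⟩
    -- a power of `g` is the central involution
    have hN : ∀ k : ℕ, ((k : ZMod (2 * n))).val ≤ 2 * n := fun k => (ZMod.val_lt _).le
    obtain ⟨m, hm1, hm⟩ : ∃ m : ℕ, g ^ m ≠ 1 ∧ g ^ m ∈ Subgroup.center G := by
      have hcen : ∀ x : QuaternionGroup n, QuaternionGroup.a (n : ZMod (2 * n)) * x =
          x * QuaternionGroup.a (n : ZMod (2 * n)) := by
        have h2n : ((n : ZMod (2 * n)) + n) = 0 := by
          rw [← Nat.cast_add, ← two_mul, ZMod.natCast_self]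
        rintro (i | i)
        · rw [QuaternionGroup.a_mul_a, QuaternionGroup.a_mul_a, add_comm]
        · rw [QuaternionGroup.a_mul_xa, QuaternionGroup.xa_mul_a]
          congr 1
          rw [sub_eq_add_neg, neg_eq_of_add_eq_zero_left h2n]
      have hn1 : QuaternionGroup.a (n : ZMod (2 * n)) ≠ 1 := by
        intro h
        have h' : (n : ZMod (2 * n)) = 0 := QuaternionGroup.a.inj h
        rw [ZMod.natCast_eq_zero_iff] at h'
        have := Nat.le_of_dvd (NeZero.pos n) h'
        have := NeZero.pos n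
        omega
      have key : ∀ x : QuaternionGroup n, orderOf x % 2 = 0 →
          x ^ (orderOf x / 2) = QuaternionGroup.a (n : ZMod (2 * n)) := by
        intro x hx
        set y := x ^ (orderOf x / 2) with hy
        have hpos : 0 < orderOf x := orderOf_pos x
        have hyo : orderOf y = 2 := by
          rw [hy, orderOf_pow' x (by omega), Nat.gcd_eq_right (Nat.div_dvd_of_dvd (Nat.dvd_of_mod_eq_zero hx)),
            Nat.div_div_self (Nat.dvd_of_mod_eq_zero hx) hpos.ne']
        clear_value y
        rcases y with i | i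
        · have h1 : QuaternionGroup.a i * QuaternionGroup.a i = (1 : QuaternionGroup n) := by
            rw [← sq, ← hyo, pow_orderOf_eq_one]
          have h2 : i + i = 0 := QuaternionGroup.a.inj (by rw [← QuaternionGroup.a_mul_a]; exact h1)
          have hi : i ≠ 0 := by
            rintro rfl
            rw [show QuaternionGroup.a (0 : ZMod (2 * n)) = 1 from rfl, orderOf_one] at hyo
            norm_num at hyo
          congr 1
          have hlt := ZMod.val_lt i
          have h3 : 2 * n ∣ i.val + i.val := by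
            rw [← ZMod.natCast_eq_zero_iff, Nat.cast_add, ZMod.natCast_zmod_val]; exact h2
          have h4 : i.val ≠ 0 := fun h => hi ((ZMod.val_eq_zero i).mp h)
          obtain ⟨c, hc⟩ := h3
          have hc1 : c = 1 := by
            rcases c with _ | _ | c
            · omega
            · rfl
            · nlinarith
          rw [hc1] at hc
          rw [← ZMod.natCast_zmod_val i, show i.val = n by omega]
        · rw [QuaternionGroup.orderOf_xa] at hyo; norm_num at hyo
      have hev : orderOf (e g) % 2 = 0 := by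
        obtain ⟨j, hj⟩ := IsPGroup.iff_card.mp hG
        have h2 : 2 ∣ p ^ j := by
          rw [← hj, Nat.card_congr e.toEquiv, Nat.card_eq_fintype_card, QuaternionGroup.card]
          exact ⟨2 * n, by ring⟩
        have hp2 : p = 2 := ((Nat.prime_dvd_prime_iff_eq Nat.prime_two Fact.out).mp
          (Nat.prime_two.dvd_of_dvd_pow h2)).symm
        obtain ⟨i, hi⟩ := IsPGroup.iff_orderOf.mp hG g
        rw [MulEquiv.orderOf_eq, hi, hp2, Nat.pow_mod]
        rcases i with _ | i
        · exact absurd (orderOf_eq_one_iff.mp (by rw [hi, pow_zero])) hg1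
        · simp
      refine ⟨orderOf (e g) / 2, fun h => hn1 ?_, Subgroup.mem_center_iff.mpr fun b => e.injective ?_⟩
      · rw [← key (e g) hev, ← map_pow, h, map_one]
      · rw [map_mul, map_mul, map_pow, key (e g) hev, hcen]
    exact central_free hρ hhalf ⟨v, hv, hne⟩ hm hm1 v hv (mem_stab.mp ((stab ρ v).pow_mem hg m))

end

end Cfsg.Agent.Recog.HalfP
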