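import Cfsg.Agent.Recog.HalfTransitiveBlocks

/-!
# Half-transitive linear 2-groups with two blocks
-/

set_option autoImplicit false

namespace Cfsg.Agent.Recog.HalfP

set_option linter.style.haveILetI false

variable {q : ℕ} [Fact q.Prime] {V : Type*} [AddCommGroup V] [Module (ZMod q) V] [Finite V]
  {G : Type*} [Group G] [Finite G] [Nontrivial V] {ρ : G →* (V ≃ₗ[ZMod q] V)}
  (hρ : Function.Injective ρ)
  (hhalf : ∀ v w : V, v ≠ 0 → w ≠ 0 → Nat.card {u : V | ∃ g : G, ρ g v = u} = Nat.card {u : V | ∃ g : G, ρ g w = u})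
  (hex : ∃ v : V, v ≠ 0 ∧ stab ρ v ≠ ⊥) (hG : IsPGroup 2 G)

include hρ hhalf hex hG in
/-- Two blocks: monomial groups, or 81 vectors. -/
theorem two_blocks (hpq : ((2 : ℕ) : ZMod q) ≠ 0) {H : Subgroup G} {W : Fin 2 → Submodule (ZMod q) V}
    (hidx : H.index = 2) (htop : iSup W = ⊤) (hind : iSupIndep W)
    (hinv : ∀ h ∈ H, ∀ i, ∀ w ∈ W i, ρ h w ∈ W i)
    (hker : ∀ i, ∃ h ∈ H, h ≠ 1 ∧ ∀ w ∈ W i, ρ h w = w)
    (hperm : ∀ g : G, g ∉ H → ∃ σ : Equiv.Perm (Fin 2), orderOf σ = 2 ∧ ∀ i, (W i).map (ρ g : V →ₗ[ZMod q] V) = W (σ i)) :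
    (Nat.card V = q ^ 2 ∧ (∃ m : ℕ, q = 2 ^ m + 1) ∧
      ∃ e : V ≃ₗ[ZMod q] (Fin 2 → ZMod q), ∀ f : (Fin 2 → ZMod q) ≃ₗ[ZMod q] (Fin 2 → ZMod q),
        (∃ g : G, f = e.symm.trans ((ρ g).trans e)) ↔
        ∃ a s : ZMod q, a ≠ 0 ∧ (s = 1 ∨ s = -1) ∧
          ((∀ v, f v = ![a * v 0, s * a⁻¹ * v 1]) ∨ (∀ v, f v = ![s * a⁻¹ * v 1, a * v 0]))) ∨
    (Nat.card V = 81 ∧ q = 3) := by
  classical
  have h2ne : (2 : ZMod q) ≠ 0 := by simpa using hpq
  obtain ⟨g₀, hg₀⟩ : ∃ g, g ∉ H := by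
    by_contra hcon
    push Not at hcon
    rw [(Subgroup.eq_top_iff' H).mpr hcon, Subgroup.index_top] at hidx
    norm_num at hidx
  -- the elements outside `H` exchange the blocks
  have hswap : ∀ g, g ∉ H → (∀ u ∈ W 0, ρ g u ∈ W 1) ∧ (∀ w ∈ W 1, ρ g w ∈ W 0) := by
    intro g hg
    obtain ⟨σ, hσ, hmap⟩ := hperm g hg
    have h0 := moves hρ hidx htop hind hker hperm hg hσ hmap 0
    have h1 := moves hρ hidx htop hind hker hperm hg hσ hmap 1
    have e0 : σ 0 = 1 := (Fin.exists_fin_two.mp ⟨σ 0, rfl⟩ : σ 0 = 0 ∨ σ 0 = 1).resolve_left h0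
    have e1 : σ 1 = 0 := (Fin.exists_fin_two.mp ⟨σ 1, rfl⟩ : σ 1 = 0 ∨ σ 1 = 1).resolve_right h1
    exact ⟨fun u hu => e0 ▸ hmap 0 ▸ ⟨u, hu, rfl⟩, fun w hw => e1 ▸ hmap 1 ▸ ⟨w, hw, rfl⟩⟩
  have hsurj : ∀ w ∈ W 1, ∃ u ∈ W 0, ρ g₀ u = w := by
    intro w hw
    obtain ⟨σ, hσ, hmap⟩ := hperm g₀ hg₀
    have h0 := moves hρ hidx htop hind hker hperm hg₀ hσ hmap 0
    have e0 : σ 0 = 1 := (Fin.exists_fin_two.mp ⟨σ 0, rfl⟩ : σ 0 = 0 ∨ σ 0 = 1).resolve_left h0
    have : w ∈ (W 0).map (ρ g₀ : V →ₗ[ZMod q] V) := by rw [hmap, e0]; exact hw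
    exact this
  have hdis : Disjoint (W 0) (W 1) := hind.pairwiseDisjoint (by decide)
  have hsplit : ∀ a ∈ W 0, ∀ b ∈ W 1, ∀ c ∈ W 0, ∀ d ∈ W 1, a + b = c + d → a = c ∧ b = d := by
    intro a ha b hb c hc d hd he
    have h1 : a - c = d - b := by rw [sub_eq_sub_iff_add_eq_add, he, add_comm]
    have h0 : a - c = 0 := Submodule.disjoint_def.mp hdis _ (sub_mem ha hc) (h1 ▸ sub_mem hd hb)
    rw [h0] at h1
    exact ⟨sub_eq_zero.mp h0, (sub_eq_zero.mp h1.symm).symm⟩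
  -- vectors with two components
  have hfix2 : ∀ u ∈ W 0, ∀ w ∈ W 1, ∀ g ∈ stab ρ (u + w),
      (g ∈ H ∧ ρ g u = u ∧ ρ g w = w) ∨ (g ∉ H ∧ ρ g u = w ∧ ρ g w = u) := by
    intro u hu w hw g hg
    have heq : ρ g u + ρ g w = u + w := by rw [← map_add]; exact mem_stab.mp hg
    by_cases hgH : g ∈ H
    · exact Or.inl ⟨hgH, hsplit _ (hinv g hgH 0 u hu) _ (hinv g hgH 1 w hw) _ hu _ hw heq⟩
    · obtain ⟨h1, h2⟩ := hsplit _ ((hswap g hgH).2 w hw) _ ((hswap g hgH).1 u hu) _ hu _ hw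
        (by rw [add_comm]; exact heq)
      exact Or.inr ⟨hgH, h2, h1⟩
  -- the relation of lying in one orbit of `H`
  let O : V → V → Prop := fun x y => ∃ h ∈ H, ρ h x = y
  have hOrefl : ∀ x, O x x := fun x => ⟨1, one_mem H, by rw [map_one]; rfl⟩
  have hOsymm : ∀ {x y}, O x y → O y x := by
    rintro x y ⟨h, hh, rfl⟩
    exact ⟨h⁻¹, inv_mem hh, by rw [← LinearEquiv.mul_apply, ← map_mul, inv_mul_cancel, map_one]; rfl⟩
  have hOtrans : ∀ {x y z}, O x y → O y z → O x z := by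
    rintro x y z ⟨h, hh, rfl⟩ ⟨k, hk, rfl⟩
    exact ⟨k * h, mul_mem hk hh, by rw [map_mul]; rfl⟩
  have hg0 : ∀ {x : V}, x ≠ 0 → ρ g₀ x ≠ 0 := fun hx h => hx ((ρ g₀).map_eq_zero_iff.mp h)
  have hpair : ∀ x ∈ W 0, x ≠ 0 → ∀ y ∈ W 0, y ≠ 0 → ¬ O x y →
      stab ρ x = stab ρ (ρ g₀ y) := by
    intro x hx hx0 y hy hy0 hxy
    have hy1 : ρ g₀ y ∈ W 1 := (hswap g₀ hg₀).1 y hy
    have hne : x + ρ g₀ y ≠ 0 := fun h => hx0 (Submodule.disjoint_def.mp hdis x hx
      (by rw [eq_neg_of_add_eq_zero_left h]; exact neg_mem hy1))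
    have hle : ∀ g ∈ stab ρ (x + ρ g₀ y), ρ g x = x ∧ ρ g (ρ g₀ y) = ρ g₀ y := by
      intro g hg
      rcases hfix2 x hx _ hy1 g hg with ⟨-, h1, h2⟩ | ⟨hgH, h1, -⟩
      · exact ⟨h1, h2⟩
      · exfalso
        refine hxy ⟨g₀⁻¹ * g, (Subgroup.mul_mem_iff_of_index_two hidx).mpr
          (iff_of_false (fun h => hg₀ (inv_inv g₀ ▸ inv_mem h)) hgH), ?_⟩
        rw [map_mul, LinearEquiv.mul_apply, h1, ← LinearEquiv.mul_apply, ← map_mul, inv_mul_cancel,
          map_one]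
        rfl
    exact (stab_eq_of_le hhalf hne hx0 fun g hg => (hle g hg).1).symm.trans
      (stab_eq_of_le hhalf hne (hg0 hy0) fun g hg => (hle g hg).2)
  have hallK : ∀ K : Subgroup G, (∀ x ∈ W 0, x ≠ 0 → stab ρ x = K ∧ stab ρ (ρ g₀ x) = K) → False := by
    intro K hK
    refine false_of_all_eq hρ hhalf hex (K := K) fun v hv => ?_
    obtain ⟨u₀, hu₀, hu₀0⟩ := Submodule.exists_mem_ne_zero_of_ne_bot (block_ne_bot hidx htop hperm 0)
    refine ((stab_eq_of_le hhalf hu₀0 hv fun g hg => ?_).symm).trans (hK u₀ hu₀ hu₀0).1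
    rw [(hK u₀ hu₀ hu₀0).1] at hg
    have hfixall : ∀ i, W i ≤ PGroupImprim.fix ρ g := by
      intro i w hw
      rw [PGroupImprim.mem_fix]
      by_cases hw0 : w = 0
      · rw [hw0, map_zero]
      fin_cases i
      · exact mem_stab.mp ((hK w hw hw0).1.symm ▸ hg : g ∈ stab ρ w)
      · obtain ⟨u, hu, rfl⟩ := hsurj w hw
        exact mem_stab.mp ((hK u hu (fun h => hw0 (by rw [h, map_zero]))).2.symm ▸ hg :
          g ∈ stab ρ (ρ g₀ u))
    exact mem_stab.mpr (PGroupImprim.mem_fix.mp (iSup_le hfixall (htop ▸ Submodule.mem_top : v ∈ iSup W)))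
  -- orbit sizes
  have horb : ∀ x ∈ W 0, x ≠ 0 → Nat.card {y : V | O x y} * Nat.card (stab ρ x) = Nat.card H := by
    intro x hx hx0
    have h := card_orbit_mul (ρ := ρ.comp H.subtype) x
    have e1 : {y : V | O x y} = {u : V | ∃ g : H, (ρ.comp H.subtype) g x = u} := by
      ext u
      exact ⟨fun ⟨h, hh, he⟩ => ⟨⟨h, hh⟩, he⟩, fun ⟨g, he⟩ => ⟨g, g.2, he⟩⟩
    have hle := stab_le hρ hidx htop hind hinv hker hperm hx hx0
    have e2 : stab (ρ.comp H.subtype) x = (stab ρ x).subgroupOf H := rfl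
    rw [e1, ← Nat.card_congr (Subgroup.subgroupOfEquivOfLe hle).toEquiv, ← e2]
    exact h
  -- transitivity on a block
  have htrans : ∀ x ∈ W 0, x ≠ 0 → ∀ y ∈ W 0, y ≠ 0 → O x y := by
    intro a ha ha0 b hb hb0
    by_contra hab
    by_cases h3 : ∃ c ∈ W 0, c ≠ 0 ∧ ¬ O a c ∧ ¬ O b c
    · obtain ⟨c, hc, hc0, hac, hbc⟩ := h3
      -- any two vectors avoid a common orbit
      have hz : ∀ x y, ∃ z ∈ W 0, z ≠ 0 ∧ ¬ O x z ∧ ¬ O y z := by
        intro x y
        by_contra hcon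
        push Not at hcon
        have hA := hcon a ha ha0
        have hB := hcon b hb hb0
        have hC := hcon c hc hc0
        rcases em (O x a) with h1 | h1 <;> rcases em (O x b) with h2 | h2 <;>
          rcases em (O x c) with h4 | h4
        all_goals first
          | exact hab (hOtrans (hOsymm h1) h2)
          | exact hac (hOtrans (hOsymm h1) h4)
          | exact hbc (hOtrans (hOsymm h2) h4)
          | exact hab (hOtrans (hOsymm (hA h1)) (hB h2))
          | exact hac (hOtrans (hOsymm (hA h1)) (hC h4))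
          | exact hbc (hOtrans (hOsymm (hB h2)) (hC h4))
      refine hallK (stab ρ a) fun x hx hx0 => ?_
      have hf : ∀ x ∈ W 0, x ≠ 0 → stab ρ x = stab ρ a := fun x hx hx0 => by
        obtain ⟨z, hz, hz0, hxz, haz⟩ := hz x a
        exact (hpair x hx hx0 z hz hz0 hxz).trans (hpair a ha ha0 z hz hz0 haz).symm
      refine ⟨hf x hx hx0, ?_⟩
      obtain ⟨z, hz, hz0, hxz, -⟩ := hz x x
      exact (hpair z hz hz0 x hx hx0 fun h => hxz (hOsymm h)).symm.trans (hf z hz hz0)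
    · push Not at h3
      have hcov : ∀ x ∈ W 0, x ≠ 0 → O a x ∨ O b x := fun x hx hx0 =>
        or_iff_not_imp_left.mpr (h3 x hx hx0)
      have hfa : ∀ x ∈ W 0, x ≠ 0 → O a x → stab ρ x = stab ρ a := fun x hx hx0 h =>
        (hpair x hx hx0 b hb hb0 fun h' => hab (hOtrans h h')).trans (hpair a ha ha0 b hb hb0 hab).symm
      -- the fixed space of the stabiliser of `a`
      let S : Submodule (ZMod q) V := W 0 ⊓ ⨅ g ∈ stab ρ a, PGroupImprim.fix ρ g
      have hSmem : ∀ w, w ∈ S ↔ w ∈ W 0 ∧ ∀ g ∈ stab ρ a, ρ g w = w := fun w => by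
        simp [S, Submodule.mem_iInf, PGroupImprim.mem_fix]
      have hbS : b ∈ S := by
        by_contra hbS
        have hlt : S < W 0 := lt_of_le_of_ne inf_le_left fun h => hbS (h ▸ hb)
        have hdvd : Nat.card S ∣ Nat.card (W 0) :=
          AddSubgroup.card_dvd_of_le (H := S.toAddSubgroup) (K := (W 0).toAddSubgroup) hlt.le
        have hne : Nat.card S ≠ Nat.card (W 0) := fun h => hlt.ne (SetLike.coe_injective
          (Set.eq_of_subset_of_ncard_le (SetLike.coe_subset_coe.mpr hlt.le)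
            (le_of_eq h.symm) (Set.toFinite _)))
        obtain ⟨t, ht⟩ := hdvd
        have hW0pos : 0 < Nat.card (W 0) := Nat.card_pos
        have ht2 : 2 ≤ t := by
          rcases t with _ | _ | t
          · simp at ht; omega
          · simp at ht; exact absurd ht.symm hne
          · omega
        -- count
        have hW : ((W 0 : Set V)).ncard = 1 + ({y : V | O a y}).ncard + ({y : V | O b y}).ncard := by
          have hset : (W 0 : Set V) = ({0} ∪ {y : V | O a y}) ∪ {y : V | O b y} := by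
            ext w
            simp only [Set.mem_union, Set.mem_singleton_iff, Set.mem_setOf_eq, SetLike.mem_coe]
            refine ⟨fun hw => ?_, ?_⟩
            · by_cases hw0 : w = 0
              · exact Or.inl (Or.inl hw0)
              · rcases hcov w hw hw0 with h | h
                · exact Or.inl (Or.inr h)
                · exact Or.inr h
            · rintro ((rfl | ⟨h, hh, rfl⟩) | ⟨h, hh, rfl⟩)
              · exact zero_mem _
              · exact hinv h hh 0 a ha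
              · exact hinv h hh 0 b hb
          rw [hset, Set.ncard_union_eq ?_ (Set.toFinite _) (Set.toFinite _),
            Set.ncard_union_eq ?_ (Set.toFinite _) (Set.toFinite _), Set.ncard_singleton]
          · rw [Set.disjoint_left]
            rintro w (rfl : w = 0) ⟨h, -, he⟩
            exact ha0 ((ρ h).map_eq_zero_iff.mp he)
          · rw [Set.disjoint_left]
            rintro w hw ⟨k, hk, he⟩
            rcases hw with (rfl : w = 0) | hw
            · exact hb0 ((ρ k).map_eq_zero_iff.mp he)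
            · exact hab (hOtrans hw (hOsymm ⟨k, hk, he⟩))
        have hS : 1 + ({y : V | O a y}).ncard ≤ Nat.card S := by
          have hsub : ({0} ∪ {y : V | O a y}) ⊆ (S : Set V) := by
            rintro w ((rfl : w = 0) | hw)
            · exact S.zero_mem
            · obtain ⟨h, hh, rfl⟩ := hw
              have hw0 : ρ h a ≠ 0 := fun e => ha0 ((ρ h).map_eq_zero_iff.mp e)
              have hwW := hinv h hh 0 a ha
              exact (hSmem _).mpr ⟨hwW, fun g hg =>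
                mem_stab.mp ((hfa _ hwW hw0 ⟨h, hh, rfl⟩).symm ▸ hg : g ∈ stab ρ (ρ h a))⟩
          have := Set.ncard_le_ncard hsub (Set.toFinite _)
          rw [Set.ncard_union_eq (Set.disjoint_left.mpr (by
              rintro w (rfl : w = 0) ⟨h, -, he⟩
              exact ha0 ((ρ h).map_eq_zero_iff.mp he))) (Set.toFinite _) (Set.toFinite _),
            Set.ncard_singleton] at this
          rwa [← Nat.card_coe_set_eq (S : Set V), SetLike.coe_sort_coe] at this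
        have hab' : ({y : V | O a y}).ncard = ({y : V | O b y}).ncard := by
          have h1 := horb a ha ha0
          have h2 := horb b hb hb0
          rw [card_stab_eq hhalf ha0 hb0] at h1
          rw [← Nat.card_coe_set_eq, ← Nat.card_coe_set_eq]
          exact Nat.eq_of_mul_eq_mul_right Nat.card_pos (h1.trans h2.symm)
        have hWc : Nat.card (W 0) = ((W 0 : Set V)).ncard := (Nat.card_coe_set_eq _)
        have : Nat.card S * 2 ≤ Nat.card S * t := Nat.mul_le_mul_left _ ht2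
        omega
      have hKb : stab ρ a = stab ρ b :=
        stab_eq_of_le hhalf ha0 hb0 fun g hg => mem_stab.mpr (((hSmem b).mp hbS).2 g hg)
      refine hallK (stab ρ a) fun x hx hx0 => ?_
      have hf : ∀ x ∈ W 0, x ≠ 0 → stab ρ x = stab ρ a := by
        intro x hx hx0
        rcases hcov x hx hx0 with h | h
        · exact hfa x hx hx0 h
        · exact ((hpair x hx hx0 a ha ha0 fun h' => hab (hOsymm (hOtrans h h'))).trans
            (hpair b hb hb0 a ha ha0 fun h' => hab (hOsymm h')).symm).trans hKb.symm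
      refine ⟨hf x hx hx0, ?_⟩
      rcases hcov x hx hx0 with h | h
      · exact (hpair b hb hb0 x hx hx0 fun h' => hab (hOtrans h (hOsymm h'))).symm.trans (hf b hb hb0)
      · exact (hpair a ha ha0 x hx hx0 fun h' => hab (hOtrans h' (hOsymm h))).symm.trans (hf a ha ha0)
  -- the size of a block
  obtain ⟨v₀, hv₀, hv₀0⟩ := Submodule.exists_mem_ne_zero_of_ne_bot (block_ne_bot hidx htop hperm 0)
  obtain ⟨j, hj⟩ : ∃ j, Nat.card (W 0) = 2 ^ j + 1 := by
    have hset : {y : V | O v₀ y} = (W 0 : Set V) \ {0} := by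
      ext w
      refine ⟨?_, fun hw => htrans v₀ hv₀ hv₀0 w hw.1 hw.2⟩
      rintro ⟨h, hh, rfl⟩
      exact ⟨hinv h hh 0 v₀ hv₀, fun e => hv₀0 ((ρ h).map_eq_zero_iff.mp e)⟩
    have hdvd : Nat.card {y : V | O v₀ y} ∣ Nat.card H := Dvd.intro _ (horb v₀ hv₀ hv₀0)
    obtain ⟨i, hi⟩ := IsPGroup.iff_card.mp (hG.to_subgroup H)
    obtain ⟨j, -, hj⟩ := (Nat.dvd_prime_pow Nat.prime_two).mp (hi ▸ hdvd)
    refine ⟨j, ?_⟩
    rw [hset, Nat.card_coe_set_eq] at hj
    rw [← hj, Set.ncard_diff_singleton_add_one (W 0).zero_mem (Set.toFinite _), ← Nat.card_coe_set_eq,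
      SetLike.coe_sort_coe]
  obtain ⟨d, hd⟩ : ∃ d, Nat.card (W 0) = q ^ d :=
    ⟨_, (Module.natCard_eq_pow_finrank (K := ZMod q) (V := W 0)).trans (by rw [Nat.card_zmod])⟩
  have hd1 : 1 ≤ d := by
    rcases Nat.eq_zero_or_pos d with rfl | h
    · rw [hd, pow_zero] at hj
      have := Nat.two_pow_pos j
      omega
    · exact h
  have hq2 : q ≠ 2 := by
    rintro rfl
    exact hpq rfl
  have hV : Nat.card V = Nat.card (W 0) * Nat.card (W 0) := by
    let f : W 0 × W 0 → V := fun x => (x.1 : V) + ρ g₀ x.2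
    have hf : Function.Bijective f := by
      refine ⟨fun x y hxy => ?_, fun v => ?_⟩
      · obtain ⟨h1, h2⟩ := hsplit _ x.1.2 _ ((hswap g₀ hg₀).1 _ x.2.2) _ y.1.2 _
          ((hswap g₀ hg₀).1 _ y.2.2) hxy
        exact Prod.ext (Subtype.ext h1) (Subtype.ext ((ρ g₀).injective h2))
      · have hv : v ∈ W 0 ⊔ W 1 := by
          have : iSup W ≤ W 0 ⊔ W 1 := iSup_le fun i => by
            fin_cases i
            · exact le_sup_left
            · exact le_sup_right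
          exact this (htop ▸ Submodule.mem_top)
        obtain ⟨a, ha, b, hb, rfl⟩ := Submodule.mem_sup.mp hv
        obtain ⟨u, hu, rfl⟩ := hsurj b hb
        exact ⟨(⟨a, ha⟩, ⟨u, hu⟩), rfl⟩
    rw [← Nat.card_eq_of_bijective f hf, Nat.card_prod]
  rcases S3370.pow_eq_two_pow_add_one Fact.out hq2 hd1 (hd.symm.trans hj) with rfl | ⟨rfl, rfl⟩
  swap
  · exact Or.inr ⟨by rw [hV, hd]; norm_num, rfl⟩
  rw [pow_one] at hd
  left
  refine ⟨by rw [hV, hd, sq], ⟨j, hd.symm.trans hj⟩, ?_⟩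
  set v₁ := ρ g₀ v₀ with hv₁def
  have hv₁ : v₁ ∈ W 1 := (hswap g₀ hg₀).1 v₀ hv₀
  have hv₁0 : v₁ ≠ 0 := hg0 hv₀0
  have hspan0 : ∀ u ∈ W 0, ∃ c : ZMod q, u = c • v₀ := by
    intro u hu
    let f : ZMod q → W 0 := fun c => ⟨c • v₀, Submodule.smul_mem _ c hv₀⟩
    have hf : Function.Injective f := fun c c' h =>
      smul_left_injective (ZMod q) hv₀0 (congrArg Subtype.val h)
    obtain ⟨c, hc⟩ := (hf.bijective_of_nat_card_le (by rw [hd, Nat.card_zmod])).2 ⟨u, hu⟩
    exact ⟨c, (congrArg Subtype.val hc).symm⟩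
  have hspan1 : ∀ w ∈ W 1, ∃ c : ZMod q, w = c • v₁ := by
    intro w hw
    obtain ⟨u, hu, rfl⟩ := hsurj w hw
    obtain ⟨c, rfl⟩ := hspan0 u hu
    exact ⟨c, by rw [map_smul]⟩
  let lin : (Fin 2 → ZMod q) →ₗ[ZMod q] V :=
    { toFun := fun v => v 0 • v₀ + v 1 • v₁
      map_add' := fun x y => by simp [add_smul]; abel
      map_smul' := fun c x => by simp [smul_add, smul_smul] }
  have hlin : Function.Bijective lin := by
    refine ⟨fun x y hxy => ?_, fun v => ?_⟩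
    · obtain ⟨h1, h2⟩ := hsplit _ (Submodule.smul_mem _ (x 0) hv₀) _ (Submodule.smul_mem _ (x 1) hv₁) _
        (Submodule.smul_mem _ (y 0) hv₀) _ (Submodule.smul_mem _ (y 1) hv₁) hxy
      ext i
      fin_cases i
      · exact smul_left_injective (ZMod q) hv₀0 h1
      · exact smul_left_injective (ZMod q) hv₁0 h2
    · have hv : v ∈ W 0 ⊔ W 1 := by
        have : iSup W ≤ W 0 ⊔ W 1 := iSup_le fun i => by
          fin_cases i
          · exact le_sup_left
          · exact le_sup_right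
        exact this (htop ▸ Submodule.mem_top)
      obtain ⟨a, ha, b, hb, rfl⟩ := Submodule.mem_sup.mp hv
      obtain ⟨c, rfl⟩ := hspan0 a ha
      obtain ⟨c', rfl⟩ := hspan1 b hb
      exact ⟨![c, c'], rfl⟩
  -- stabilisers have order two
  have hle2 : ∀ c : ZMod q, c ≠ 0 → Nat.card (stab ρ (v₀ + c • v₁)) ≤ 2 := by
    intro c hc
    rw [← hidx, Subgroup.index_eq_card]
    refine Nat.card_le_card_of_injective (fun g => (((g : G)) : G ⧸ H)) fun g g' hgg => ?_
    rw [QuotientGroup.eq] at hgg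
    have hmem : (g : G)⁻¹ * g' ∈ stab ρ (v₀ + c • v₁) := mul_mem (inv_mem g.2) g'.2
    rcases hfix2 v₀ hv₀ _ (Submodule.smul_mem _ c hv₁) _ hmem with ⟨-, h1, h2⟩ | ⟨h, -, -⟩
    · refine Subtype.ext (inv_mul_eq_one.mp (hρ (LinearEquiv.ext fun v => ?_)))
      obtain ⟨x, rfl⟩ := hlin.2 v
      rw [map_smul] at h2
      have h2' := smul_right_injective V hc h2
      rw [map_one]
      show ρ _ (x 0 • v₀ + x 1 • v₁) = x 0 • v₀ + x 1 • v₁
      rw [map_add, map_smul, map_smul, h1, h2']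
    · exact absurd hgg h
  have hcard2 : ∀ v : V, v ≠ 0 → Nat.card (stab ρ v) = 2 := by
    intro v hv
    obtain ⟨w, hw, hne⟩ := hex
    have h1 : Nat.card (stab ρ w) ≤ 2 := by
      rw [card_stab_eq hhalf hw (v := w) (w := v₀ + (1 : ZMod q) • v₁) ?_]
      · exact hle2 1 one_ne_zero
      · intro h
        rw [one_smul] at h
        exact hv₀0 (Submodule.disjoint_def.mp hdis v₀ hv₀
          (by rw [eq_neg_of_add_eq_zero_left h]; exact neg_mem hv₁))
    have h2 : 2 ≤ Nat.card (stab ρ w) := by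
      rw [Nat.succ_le_iff, Finite.one_lt_card_iff_nontrivial, Subgroup.nontrivial_iff_ne_bot]
      exact hne
    rw [card_stab_eq hhalf hv hw]
    omega
  have hswapc : ∀ c : ZMod q, c ≠ 0 → ∃ g : G, g ∉ H ∧ ρ g v₀ = c • v₁ ∧ ρ g v₁ = c⁻¹ • v₀ := by
    intro c hc
    have hne : v₀ + c • v₁ ≠ 0 := fun h => hv₀0 (Submodule.disjoint_def.mp hdis v₀ hv₀
      (by rw [eq_neg_of_add_eq_zero_left h]; exact neg_mem (Submodule.smul_mem _ c hv₁)))
    have hnb : stab ρ (v₀ + c • v₁) ≠ ⊥ := fun h => by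
      have := hcard2 _ hne
      rw [h, Subgroup.card_bot] at this
      norm_num at this
    obtain ⟨g, hg, hg1⟩ := (Subgroup.bot_or_exists_ne_one _).resolve_left hnb
    rcases hfix2 v₀ hv₀ _ (Submodule.smul_mem _ c hv₁) g hg with ⟨-, h1, h2⟩ | ⟨h, h1, h2⟩
    · refine absurd (hρ (LinearEquiv.ext fun v => ?_)) hg1
      obtain ⟨x, rfl⟩ := hlin.2 v
      rw [map_smul] at h2
      have h2' := smul_right_injective V hc h2
      rw [map_one]
      show ρ g (x 0 • v₀ + x 1 • v₁) = x 0 • v₀ + x 1 • v₁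
      rw [map_add, map_smul, map_smul, h1, h2']
    · refine ⟨g, h, h1, ?_⟩
      rw [map_smul] at h2
      rw [← h2, smul_smul, inv_mul_cancel₀ hc, one_smul]
  -- the element `(1, -1)`
  obtain ⟨h₁, hh₁, hh₁0, hh₁1⟩ : ∃ h : G, h ∈ H ∧ ρ h v₀ = v₀ ∧ ρ h v₁ = -v₁ := by
    have hnb : stab ρ v₀ ≠ ⊥ := fun h => by
      have := hcard2 _ hv₀0
      rw [h, Subgroup.card_bot] at this
      norm_num at this
    obtain ⟨h, hh, hh1⟩ := (Subgroup.bot_or_exists_ne_one _).resolve_left hnb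
    have hhH := stab_le hρ hidx htop hind hinv hker hperm hv₀ hv₀0 hh
    refine ⟨h, hhH, hh, ?_⟩
    obtain ⟨β, hβ⟩ := hspan1 _ (hinv h hhH 1 v₁ hv₁)
    have hh2 : h * h = 1 := by
      have := pow_card_eq_one' (x := (⟨h, hh⟩ : stab ρ v₀))
      rw [hcard2 _ hv₀0] at this
      exact (sq h).symm.trans (congrArg Subtype.val this)
    have hββ : (β * β) • v₁ = (1 : ZMod q) • v₁ := by
      rw [one_smul, ← smul_smul, ← hβ, ← map_smul, ← hβ, ← LinearEquiv.mul_apply, ← map_mul, hh2,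
        map_one]
      rfl
    rcases mul_self_eq_one_iff.mp (smul_left_injective (ZMod q) hv₁0 hββ) with rfl | rfl
    · refine absurd (hρ (LinearEquiv.ext fun v => ?_)) hh1
      obtain ⟨x, rfl⟩ := hlin.2 v
      rw [map_one]
      show ρ h (x 0 • v₀ + x 1 • v₁) = x 0 • v₀ + x 1 • v₁
      rw [map_add, map_smul, map_smul, mem_stab.mp hh, hβ, one_smul]
    · rw [hβ, neg_one_smul]
  obtain ⟨g₁, hg₁, hg₁0, hg₁1⟩ := hswapc 1 one_ne_zero
  rw [one_smul] at hg₁0
  rw [inv_one, one_smul] at hg₁1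
  -- realisation of all monomial maps
  have hdiag : ∀ a s : ZMod q, a ≠ 0 → (s = 1 ∨ s = -1) →
      ∃ g : G, ρ g v₀ = a • v₀ ∧ ρ g v₁ = (s * a⁻¹) • v₁ := by
    intro a s ha hs
    obtain ⟨g, -, hg0', hg1'⟩ := hswapc a ha
    have e0 : ρ (g₁ * g) v₀ = a • v₀ := by
      rw [map_mul, LinearEquiv.mul_apply, hg0', map_smul, hg₁1]
    have e1 : ρ (g₁ * g) v₁ = a⁻¹ • v₁ := by
      rw [map_mul, LinearEquiv.mul_apply, hg1', map_smul, hg₁0]
    rcases hs with rfl | rfl
    · exact ⟨g₁ * g, e0, by rw [one_mul]; exact e1⟩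
    · refine ⟨h₁ * (g₁ * g), ?_, ?_⟩
      · rw [map_mul ρ h₁, LinearEquiv.mul_apply, e0, map_smul, hh₁0]
      · rw [map_mul ρ h₁, LinearEquiv.mul_apply, e1, map_smul, hh₁1, smul_neg, neg_one_mul, neg_smul]
  -- and every element is monomial
  have hmono : ∀ g ∈ H, ∃ a s : ZMod q, a ≠ 0 ∧ (s = 1 ∨ s = -1) ∧
      ρ g v₀ = a • v₀ ∧ ρ g v₁ = (s * a⁻¹) • v₁ := by
    intro g hgH
    obtain ⟨a, ha⟩ := hspan0 _ (hinv g hgH 0 v₀ hv₀)
    obtain ⟨b, hb⟩ := hspan1 _ (hinv g hgH 1 v₁ hv₁)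
    have ha0 : a ≠ 0 := by
      rintro rfl
      rw [zero_smul] at ha
      exact hv₀0 ((ρ g).map_eq_zero_iff.mp ha)
    obtain ⟨k, hk0, hk1⟩ := hdiag a⁻¹ 1 (inv_ne_zero ha0) (Or.inl rfl)
    rw [inv_inv, one_mul] at hk1
    have hfx : k * g ∈ stab ρ v₀ := by
      rw [mem_stab, map_mul, LinearEquiv.mul_apply, ha, map_smul, hk0, smul_smul, mul_inv_cancel₀ ha0,
        one_smul]
    have hkg1 : ρ (k * g) v₁ = (b * a) • v₁ := by
      rw [map_mul, LinearEquiv.mul_apply, hb, map_smul, hk1, smul_smul]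
    refine ⟨a, b * a, ha0, ?_, ha, by rw [hb, mul_assoc, mul_inv_cancel₀ ha0, mul_one]⟩
    have hsq : ρ (k * g) (ρ (k * g) v₁) = v₁ := by
      have := pow_card_eq_one' (x := (⟨k * g, hfx⟩ : stab ρ v₀))
      rw [hcard2 _ hv₀0] at this
      rw [← LinearEquiv.mul_apply, ← map_mul, ← sq,
        show (k * g) ^ 2 = 1 from congrArg Subtype.val this, map_one]
      rfl
    rw [hkg1, map_smul, hkg1, smul_smul] at hsq
    exact mul_self_eq_one_iff.mp (smul_left_injective (ZMod q) hv₁0 (hsq.trans (one_smul _ v₁).symm))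
  set e := (LinearEquiv.ofBijective lin hlin).symm
  have hes : ∀ v : Fin 2 → ZMod q, e.symm v = v 0 • v₀ + v 1 • v₁ := fun v => rfl
  have hec : ∀ x y : ZMod q, e (x • v₀ + y • v₁) = ![x, y] := fun x y => by
    rw [← e.apply_symm_apply ![x, y], hes]; rfl
  refine ⟨e, fun f => ⟨?_, ?_⟩⟩
  · rintro ⟨g, rfl⟩
    by_cases hgH : g ∈ H
    · obtain ⟨a, s, ha, hs, e0, e1⟩ := hmono g hgH
      refine ⟨a, s, ha, hs, Or.inl fun v => ?_⟩
      show e (ρ g (e.symm v)) = _
      rw [hes, map_add, map_smul, map_smul, e0, e1, smul_smul, smul_smul, hec, mul_comm (v 0),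
        mul_comm (v 1)]
    · have hgg : g₁ * g ∈ H := (Subgroup.mul_mem_iff_of_index_two hidx).mpr (iff_of_false hg₁ hgH)
      obtain ⟨a, s, ha, hs, e0, e1⟩ := hmono _ hgg
      refine ⟨a, s, ha, hs, Or.inr fun v => ?_⟩
      have hback : ∀ x y : V, ρ (g₁ * g) x = y → ρ g x = ρ g₁⁻¹ y := fun x y h => by
        rw [← h, ← LinearEquiv.mul_apply, ← map_mul, inv_mul_cancel_left]
      have hinv0 : ρ g₁⁻¹ v₀ = v₁ := by
        rw [← hg₁1, ← LinearEquiv.mul_apply, ← map_mul, inv_mul_cancel, map_one]; rfl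
      have hinv1 : ρ g₁⁻¹ v₁ = v₀ := by
        rw [← hg₁0, ← LinearEquiv.mul_apply, ← map_mul, inv_mul_cancel, map_one]; rfl
      have f0 : ρ g v₀ = a • v₁ := by rw [hback _ _ e0, map_smul, hinv0]
      have f1 : ρ g v₁ = (s * a⁻¹) • v₀ := by rw [hback _ _ e1, map_smul, hinv1]
      show e (ρ g (e.symm v)) = _
      rw [hes, map_add, map_smul, map_smul, f0, f1, smul_smul, smul_smul, add_comm, hec,
        mul_comm (v 0), mul_comm (v 1)]
  · rintro ⟨a, s, ha, hs, h | h⟩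
    · obtain ⟨g, e0, e1⟩ := hdiag a s ha hs
      refine ⟨g, LinearEquiv.ext fun v => ?_⟩
      rw [h]
      show _ = e (ρ g (e.symm v))
      rw [hes, map_add, map_smul, map_smul, e0, e1, smul_smul, smul_smul, hec, mul_comm (v 0),
        mul_comm (v 1)]
    · obtain ⟨g, e0, e1⟩ := hdiag a s ha hs
      refine ⟨g₁ * g, LinearEquiv.ext fun v => ?_⟩
      rw [h]
      show _ = e (ρ (g₁ * g) (e.symm v))
      rw [hes, map_add, map_smul, map_smul, map_mul, LinearEquiv.mul_apply, LinearEquiv.mul_apply,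
        e0, e1, map_smul, map_smul, hg₁0, hg₁1, smul_smul, smul_smul, add_comm, hec, mul_comm (v 0),
        mul_comm (v 1)]

end Cfsg.Agent.Recog.HalfP
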