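import Cfsg.Agent.Recog.MathieuTwelveData

/-!
# The Mathieu groups of degrees eleven and twelve from explicit generators
-/

set_option autoImplicit false

namespace Cfsg.Agent.Recog.MathieuTwelve

open Cfsg.Agent.Recog.PermChain

/-- The group at each level. -/
def grp {m : ℕ} (S : Fin m → P12) : Subgroup P12 := Subgroup.closure (Set.range S)

theorem fix_grp {m : ℕ} {S : Fin m → P12} {b : Fin 12} (h : ∀ g, S g b = b) :
    ∀ k ∈ grp S, k b = b := by
  intro k hk
  induction hk using Subgroup.closure_induction with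
  | mem x hx => obtain ⟨g, rfl⟩ := hx; exact h g
  | one => rfl
  | mul x y _ _ hx hy => rw [Equiv.Perm.mul_apply, hy, hx]
  | inv x _ hx => exact Equiv.Perm.inv_eq_iff_eq.mpr hx.symm

theorem le_grp {m k : ℕ} {S : Fin m → P12} {S' : Fin k → P12} (f : Fin m → Fin k)
    (h : ∀ g, S g = S' (f g)) : grp S ≤ grp S' :=
  Subgroup.closure_mono (by rintro _ ⟨g, rfl⟩; exact ⟨f g, (h g).symm⟩)

theorem mem0 (i : Fin 8) : T0 i ∈ grp S0 := transversal_mem tree0 i
theorem mem1 (i : Fin 9) : T1 i ∈ grp S1 := transversal_mem tree1 i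
theorem mem2 (i : Fin 10) : T2 i ∈ grp S2 := transversal_mem tree2 i
theorem mem3 (i : Fin 11) : T3 i ∈ grp S3 := transversal_mem tree3 i
theorem mem4 (i : Fin 12) : T4 i ∈ grp S4 := transversal_mem tree4 i

theorem le01 : grp S0 ≤ grp S1 := le_grp ![2, 3, 4] (by intro g; fin_cases g <;> rfl)
theorem le12 : grp S1 ≤ grp S2 := le_grp ![0, 1, 2, 3, 4] (by intro g; fin_cases g <;> rfl)
theorem le23 : grp S2 ≤ grp S3 := le_grp ![0, 1, 2, 3, 4, 5] (by intro g; fin_cases g <;> rfl)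
theorem le34 : grp S3 ≤ grp S4 := le_grp ![0, 1, 2, 3, 4, 5, 6] (by intro g; fin_cases g <;> rfl)

theorem step0 : Nat.card (grp S0) = 8 ∧ ∀ g ∈ grp S0, g 4 = 4 → g = 1 := by
  have h := step (H := ⊥) mem0 bot_le (fun h hh => by rw [Subgroup.mem_bot.mp hh]; rfl)
    ⟨0, ((tree0 0).resolve_right (by rintro ⟨g, j, hj, -⟩; simp at hj)).2⟩ inj0
    (fun g i => ⟨c0_0 g i, 1, one_mem _, by rw [mul_one]; exact Equiv.ext (closed0 g i)⟩)
  exact ⟨by rw [show grp S0 = Subgroup.closure (Set.range S0) from rfl, h.1, Subgroup.card_bot, mul_one],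
    fun g hg hb => Subgroup.mem_bot.mp (h.2 g hg hb)⟩

theorem step1 : Nat.card (grp S1) = 72 ∧ ∀ g ∈ grp S1, g 3 = 3 → g ∈ grp S0 := by
  have h := step (H := grp S0) mem1 le01 (fix_grp (by decide +kernel))
    ⟨0, ((tree1 0).resolve_right (by rintro ⟨g, j, hj, -⟩; simp at hj)).2⟩ inj1
    (fun g i => ⟨c1_0 g i, _, mem0 (c1_1 g i), Equiv.ext (closed1 g i)⟩)
  exact ⟨by rw [show grp S1 = Subgroup.closure (Set.range S1) from rfl, h.1, step0.1], h.2⟩

theorem step2 : Nat.card (grp S2) = 720 ∧ ∀ g ∈ grp S2, g 0 = 0 → g ∈ grp S1 := by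
  have h := step (H := grp S1) mem2 le12 (fix_grp (by decide +kernel))
    ⟨0, ((tree2 0).resolve_right (by rintro ⟨g, j, hj, -⟩; simp at hj)).2⟩ inj2
    (fun g i => ⟨c2_0 g i, _, mul_mem (mem1 (c2_1 g i)) (le01 (mem0 (c2_2 g i))),
      Equiv.ext fun x => by rw [closed2 g i x, mul_assoc]⟩)
  exact ⟨by rw [show grp S2 = Subgroup.closure (Set.range S2) from rfl, h.1, step1.1], h.2⟩

theorem step3 : Nat.card (grp S3) = 7920 ∧ ∀ g ∈ grp S3, g 1 = 1 → g ∈ grp S2 := by
  have h := step (H := grp S2) mem3 le23 (fix_grp (by decide +kernel))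
    ⟨0, ((tree3 0).resolve_right (by rintro ⟨g, j, hj, -⟩; simp at hj)).2⟩ inj3
    (fun g i => ⟨c3_0 g i, _, mul_mem (mul_mem (mem2 (c3_1 g i)) (le12 (mem1 (c3_2 g i))))
        (le12 (le01 (mem0 (c3_3 g i)))),
      Equiv.ext fun x => by rw [closed3 g i x]; simp only [mul_assoc]⟩)
  exact ⟨by rw [show grp S3 = Subgroup.closure (Set.range S3) from rfl, h.1, step2.1], h.2⟩

theorem step4 : Nat.card (grp S4) = 95040 ∧ ∀ g ∈ grp S4, g 2 = 2 → g ∈ grp S3 := by
  have h := step (H := grp S3) mem4 le34 (fix_grp (by decide +kernel))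
    ⟨0, ((tree4 0).resolve_right (by rintro ⟨g, j, hj, -⟩; simp at hj)).2⟩ inj4
    (fun g i => ⟨c4_0 g i, _, mul_mem (mul_mem (mul_mem (mem3 (c4_1 g i)) (le23 (mem2 (c4_2 g i))))
        (le23 (le12 (mem1 (c4_3 g i))))) (le23 (le12 (le01 (mem0 (c4_4 g i))))),
      Equiv.ext fun x => by rw [closed4 g i x]; simp only [mul_assoc]⟩)
  exact ⟨by rw [show grp S4 = Subgroup.closure (Set.range S4) from rfl, h.1, step3.1], h.2⟩

theorem stab_two : grp S3 = grp S4 ⊓ MulAction.stabilizer P12 (2 : Fin 12) := by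
  apply le_antisymm
  · exact le_inf le34 fun g hg => MulAction.mem_stabilizer_iff.mpr
      (fix_grp (S := S3) (b := 2) (by decide +kernel) g hg)
  · exact fun g hg => step4.2 g hg.1 (MulAction.mem_stabilizer_iff.mp hg.2)

/-- The base tuple. -/
def base : Fin 5 ↪ Fin 12 := ⟨![2, 1, 0, 3, 4], by decide⟩

theorem five_transitive : MulAction.IsMultiplyPretransitive (grp S4) (Fin 12) 5 ∧
    ∀ y : Fin 5 ↪ Fin 12, MulAction.stabilizer (grp S4) y = ⊥ := by
  have key : ∀ g : grp S4, g • base = base → g = 1 := by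
    intro g hg
    have hb : ∀ i, (g : P12) (base i) = base i := fun i => DFunLike.congr_fun hg i
    exact Subtype.ext (step0.2 _ (step1.2 _ (step2.2 _ (step3.2 _ (step4.2 _ g.2 (hb 0)) (hb 1)) (hb 2)) (hb 3)) (hb 4))
  have hms : ∀ (a b : grp S4) (y : Fin 5 ↪ Fin 12), (a * b) • y = a • (b • y) :=
    fun a b y => DFunLike.ext _ _ fun _ => rfl
  have hone : ∀ (a : grp S4) (y : Fin 5 ↪ Fin 12), a⁻¹ • (a • y) = y := fun a y => by
    rw [← hms, inv_mul_cancel]
    exact DFunLike.ext _ _ fun _ => rfl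
  let f : grp S4 → (Fin 5 ↪ Fin 12) := fun g => g • base
  have hf : Function.Injective f := fun g h hgh => inv_mul_eq_one.mp (key (g⁻¹ * h) (by
    rw [hms, show h • base = g • base from hgh.symm, hone]))
  have hsurj : Function.Surjective f := (hf.bijective_of_nat_card_le (by
    rw [step4.1, Nat.card_eq_fintype_card, Fintype.card_embedding_eq, Fintype.card_fin, Fintype.card_fin]
    decide)).2
  refine ⟨?_, fun y => ?_⟩
  · refine ⟨fun a b => ?_⟩
    obtain ⟨g, rfl⟩ := hsurj a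
    obtain ⟨h, rfl⟩ := hsurj b
    exact ⟨h * g⁻¹, by show (h * g⁻¹) • (g • base) = h • base; rw [hms, hone]⟩
  · rw [Subgroup.eq_bot_iff_forall]
    intro g hg
    obtain ⟨h, rfl⟩ := hsurj y
    rw [MulAction.mem_stabilizer_iff] at hg
    have := key (h⁻¹ * g * h) (by
      rw [hms, hms, show g • h • base = h • base from hg, hone])
    rwa [mul_eq_one_iff_eq_inv, inv_mul_eq_iff_eq_mul, mul_inv_cancel] at this

end Cfsg.Agent.Recog.MathieuTwelve
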